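/-
Strongly closed subgroups of the unitriangular group of `SU_n`, `n ≥ 4`.
-/
import Mathlib
import Cfsg.Agent.Lib.Fusion.PSU.Upper

set_option autoImplicit false
set_option linter.unusedSectionVars false
set_option linter.unusedSimpArgs false
set_option linter.unusedVariables false

namespace Cfsg.Agent.Lib.Fusion.PSU.Closed

open scoped Matrix
open Cfsg
open Cfsg.Agent.Lib.Classical.Herm.Basic Cfsg.Agent.Lib.Classical.Herm.Form
open Cfsg.Agent.Lib.Classical.Herm.GU Cfsg.Agent.Lib.Classical.Herm.SU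
open Cfsg.Agent.Lib.Classical.Herm.Subfield
open Cfsg.Agent.Lib.Classical.Herm.Tv Cfsg.Agent.Lib.Classical.Herm.Comm
open Cfsg.Agent.Lib.Classical.Herm.Unip
open Cfsg.Agent.Lib.Fusion.PSU.Basis Cfsg.Agent.Lib.Fusion.PSU.Basis.WB
open Cfsg.Agent.Lib.Fusion.PSU.Upper

variable {F : Type*} [Field F] [Fintype F] {q n : ℕ} {W : WB F q n}

local notation "⟪" x ", " y "⟫" => hermForm _ _ q x y

section siegel
variable (hF : Fintype.card F = q ^ 2)
include hF

theorem form_act_inv (g : SU n F q) (x y : Fin n → F) : ⟪act g⁻¹ x, y⟫ = ⟪x, act g y⟫ := by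
  have := h_act g (act g⁻¹ x) y
  rw [act_act_inv] at this
  exact this.symm

theorem siegel_conj (g : SU n F q) {e w e' w' : Fin n → F} {β : F} (he : ⟪e, e⟫ = 0)
    (hwe : ⟪w, e⟫ = 0) (hβ : β + β ^ q + ⟪w, w⟫ = 0) (he' : ⟪e', e'⟫ = 0) (hwe' : ⟪w', e'⟫ = 0)
    (hβ' : β + β ^ q + ⟪w', w'⟫ = 0) (h1 : act g e = e') (h2 : act g w = w') :
    g * siegel hF he hwe hβ * g⁻¹ = siegel hF he' hwe' hβ' := by
  apply ext_act
  intro x
  rw [act_mul, act_mul, act_siegel, act_siegel, act_add, act_add, act_sub, act_act_inv, act_smul,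
    act_smul, act_smul, form_act_inv hF, form_act_inv hF, h1, h2]

theorem siegel_mul {e w w' : Fin n → F} {β β' : F} (he : ⟪e, e⟫ = 0) (hwe : ⟪w, e⟫ = 0)
    (hw'e : ⟪w', e⟫ = 0) (hβ : β + β ^ q + ⟪w, w⟫ = 0) (hβ' : β' + β' ^ q + ⟪w', w'⟫ = 0) :
    ∃ (h1 : ⟪w + w', e⟫ = 0)
      (h2 : (β + β' - ⟪w', w⟫) + (β + β' - ⟪w', w⟫) ^ q + ⟪w + w', w + w'⟫ = 0),
      siegel hF he hwe hβ * siegel hF he hw'e hβ' = siegel hF he h1 h2 := by
  have hew : ⟪e, w⟫ = 0 := hermForm_symm_zero hF hwe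
  have h1 : ⟪w + w', e⟫ = 0 := by rw [hermForm_add_left, hwe, hw'e, add_zero]
  have h2 : (β + β' - ⟪w', w⟫) + (β + β' - ⟪w', w⟫) ^ q + ⟪w + w', w + w'⟫ = 0 := by
    rw [pow_q_sub hF, pow_q_add hF, hermForm_pow_q hF]
    simp only [hermForm_add_left, hermForm_add_right hF]
    linear_combination hβ + hβ'
  refine ⟨h1, h2, ?_⟩
  apply ext_act
  intro x
  rw [act_mul]
  simp only [act_siegel, hermForm_add_left, hermForm_sub_left, hermForm_smul_left, he, hwe, hw'e,
    hew, hermForm_add_right hF]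
  funext i
  simp only [Pi.add_apply, Pi.sub_apply, Pi.smul_apply, smul_eq_mul]
  ring

theorem siegel_zero_eq_one {e : Fin n → F} (he : ⟪e, e⟫ = 0) (h1 : ⟪(0 : Fin n → F), e⟫ = 0)
    {β : F} (h2 : β + β ^ q + ⟪(0 : Fin n → F), 0⟫ = 0) (hb : β = 0) : siegel hF he h1 h2 = 1 := by
  subst hb
  apply ext_act
  intro x
  rw [act_siegel, act_one, hermForm_zero_right hF]
  simp

theorem siegel_inv {e w : Fin n → F} {β : F} (he : ⟪e, e⟫ = 0) (hwe : ⟪w, e⟫ = 0)
    (hβ : β + β ^ q + ⟪w, w⟫ = 0) :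
    ∃ (h1 : ⟪-w, e⟫ = 0) (h2 : β ^ q + (β ^ q) ^ q + ⟪-w, -w⟫ = 0),
      (siegel hF he hwe hβ)⁻¹ = siegel hF he h1 h2 := by
  have hew : ⟪e, w⟫ = 0 := hermForm_symm_zero hF hwe
  have h1 : ⟪-w, e⟫ = 0 := by rw [hermForm_neg_left, hwe, neg_zero]
  have h2 : β ^ q + (β ^ q) ^ q + ⟪-w, -w⟫ = 0 := by
    rw [pow_q_pow_q hF, hermForm_neg_left, hermForm_neg_right hF]
    linear_combination hβ
  refine ⟨h1, h2, ?_⟩
  apply inv_eq_of_mul_eq_one_right
  apply ext_act
  intro x
  rw [act_mul, act_one]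
  simp only [act_siegel, hermForm_add_left, hermForm_sub_left, hermForm_smul_left, he, hwe,
    hew, hermForm_neg_left, hermForm_neg_right hF]
  funext i
  simp only [Pi.add_apply, Pi.sub_apply, Pi.smul_apply, smul_eq_mul, Pi.neg_apply]
  linear_combination (⟪x, e⟫ * e i) * hβ

/-- Writing a Siegel element as a product with a transvection. -/
theorem siegel_add_line {e w₀ : Fin n → F} {a β β₀ : F} (he : ⟪e, e⟫ = 0) (h1 : ⟪w₀ + a • e, e⟫ = 0)
    (h2 : β + β ^ q + ⟪w₀ + a • e, w₀ + a • e⟫ = 0) (h3 : ⟪w₀, e⟫ = 0)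
    (h4 : β₀ + β₀ ^ q + ⟪w₀, w₀⟫ = 0) :
    ∃ (d : F) (hd : d + d ^ q = 0), siegel hF he h1 h2 = siegel hF he h3 h4 * tv hF he hd := by
  have hew : ⟪e, w₀⟫ = 0 := hermForm_symm_zero hF h3
  have hd : (β - β₀ + a - a ^ q) + (β - β₀ + a - a ^ q) ^ q = 0 := by
    rw [pow_q_sub hF, pow_q_add hF, pow_q_sub hF, pow_q_pow_q hF]
    have h5 : ⟪w₀ + a • e, w₀ + a • e⟫ = ⟪w₀, w₀⟫ := by
      simp only [hermForm_add_left, hermForm_add_right hF, hermForm_smul_left, hermForm_smul_right,
        he, h3, hew]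
      ring
    rw [h5] at h2
    linear_combination h2 - h4
  refine ⟨_, hd, ?_⟩
  apply ext_act
  intro x
  rw [act_mul]
  simp only [act_siegel, act_tv, hermForm_add_left, hermForm_sub_left, hermForm_smul_left, he, h3,
    hew, hermForm_add_right hF, hermForm_smul_right]
  funext i
  simp only [Pi.add_apply, Pi.sub_apply, Pi.smul_apply, smul_eq_mul]
  ring

theorem tv_zero_vec {c : F} (h0 : ⟪(0 : Fin n → F), 0⟫ = 0) (hc : c + c ^ q = 0) :
    tv hF h0 hc = 1 := by
  apply ext_act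
  intro x
  rw [act_tv, act_one]
  simp

theorem tv_zero_coeff {v : Fin n → F} (hv : ⟪v, v⟫ = 0) {c : F} (hc : c + c ^ q = 0) (h : c = 0) :
    tv hF hv hc = 1 := by
  subst h
  apply ext_act
  intro x
  rw [act_tv, act_one]
  simp

end siegel

/-! ### Closed subgroups -/

/-- Subgroups of the unitriangular group closed under conjugation inside it. -/
structure Cl (W : WB F q n) (T : Subgroup (SU n F q)) : Prop where
  le : T ≤ W.US
  cl : ∀ x ∈ T, ∀ g, g * x * g⁻¹ ∈ W.US → g * x * g⁻¹ ∈ T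

theorem fix_u0 {g : SU n F q} (hg : W.IsU g) {k₀ : Fin n} (h0 : (k₀ : ℕ) = 0) :
    act g (W.u k₀) = W.u k₀ := by
  refine W.eq_of_cc fun i => ?_
  rw [← M_apply, cc_u]
  by_cases h : i = k₀
  · subst h
    rw [hg.2, if_pos rfl]
  · rw [if_neg h]
    apply hg.1
    rw [Fin.lt_def, h0]
    have : (i : ℕ) ≠ 0 := fun e => h (Fin.ext (e.trans h0.symm))
    omega

section closed
variable {p : ℕ} [hp : Fact p.Prime] [hc : CharP F p]
variable (hF : Fintype.card F = q ^ 2)
variable {T : Subgroup (SU n F q)} (hT : Cl W T) {k₀ : Fin n} (h0 : (k₀ : ℕ) = 0)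

include hc hF h0 in
theorem Re_le_US : Re q (W.u k₀) ≤ W.US := by
  obtain ⟨P, hP⟩ := exists_sylow (p := p) hF W
  have := Re_le_sylow p P (e := W.u k₀) (fun g hg => by
    have hg' : g ∈ (P : Subgroup (SU n F q)) := hg
    rw [hP] at hg'
    exact fix_u0 hg' h0)
  rwa [hP] at this

/-- The lower half of the Witt basis. -/
def Lower (W : WB F q n) (v : Fin n → F) : Prop := ∀ i : Fin n, n ≤ 2 * (i : ℕ) + 1 → W.cc i v = 0

include hT hF in
/-- All transvections with centre in the lower half. -/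
theorem tv_mem_lower (hn : 3 ≤ n) {k : Fin n} (he : ⟪W.u k, W.u k⟫ = 0) {c : F} (hc0 : c ≠ 0)
    (hc' : c + c ^ q = 0) (hmem : tv hF he hc' ∈ T) {v : Fin n → F} (hv : ⟪v, v⟫ = 0)
    (hsupp : Lower W v) {d : F} (hd : d + d ^ q = 0) : tv hF hv hd ∈ T := by
  by_cases hv0 : v = 0
  · subst hv0
    rw [tv_zero_vec hF hv hd]
    exact T.one_mem
  by_cases hd0 : d = 0
  · rw [tv_zero_coeff hF hv hd hd0]
    exact T.one_mem
  have hcq : c ^ q = -c := by linear_combination hc'
  have hdq : d ^ q = -d := by linear_combination hd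
  have hr : (d / c) ^ q = d / c := by
    rw [div_pow, hcq, hdq, neg_div_neg_eq]
  obtain ⟨a, ha⟩ := exists_norm_eq hF (d / c) (div_ne_zero hd0 hc0) hr
  have ha0 : a ≠ 0 := by
    rintro rfl
    rw [zero_pow (by omega)] at ha
    exact div_ne_zero hd0 hc0 ha.symm
  have hav : ⟪a • v, a • v⟫ = 0 := by
    rw [hermForm_smul_left, hermForm_smul_right, hv]
    ring
  obtain ⟨g, -, hg⟩ := reach_iso hF hn he hav (W.u_ne_zero k) (smul_ne_zero ha0 hv0)
  have h1 : g * tv hF he hc' * g⁻¹ = tv hF hv hd := by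
    apply ext_act
    intro x
    rw [act_conj, act_tv, hg, hermForm_smul_right]
    have e1 : d = c * (a ^ q * a) := by
      have : a ^ q * a = d / c := by rw [← ha, pow_succ]
      rw [this]
      field_simp
    funext i
    simp only [Pi.add_apply, Pi.smul_apply, smul_eq_mul]
    rw [e1]
    ring
  rw [← h1]
  refine hT.cl _ hmem _ ?_
  rw [h1]
  exact isU_tv hF hv hd hsupp

/-- The vectors `w` such that `T` contains a Siegel element with centre `e` and vector `w`. -/
def InY (hF : Fintype.card F = q ^ 2) (T : Subgroup (SU n F q)) {e : Fin n → F} (he : ⟪e, e⟫ = 0)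
    (w : Fin n → F) : Prop :=
  ∃ (β : F) (hwe : ⟪w, e⟫ = 0) (hβ : β + β ^ q + ⟪w, w⟫ = 0), siegel hF he hwe hβ ∈ T

section Y

theorem inY_zero {e : Fin n → F} (he : ⟪e, e⟫ = 0) : InY hF T he 0 := by
  have h1 : ⟪(0 : Fin n → F), e⟫ = 0 := hermForm_zero_left _ _
  have h2 : (0 : F) + (0 : F) ^ q + ⟪(0 : Fin n → F), 0⟫ = 0 := by
    rw [hermForm_zero_left, zero_pow_q hF]
    ring
  refine ⟨0, h1, h2, ?_⟩
  rw [siegel_zero_eq_one hF he h1 h2 rfl]
  exact T.one_mem

theorem InY.add {e : Fin n → F} {he : ⟪e, e⟫ = 0} {w w' : Fin n → F} (h : InY hF T he w) (h' : InY hF T he w') :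
    InY hF T he (w + w') := by
  obtain ⟨β, h1, h2, h3⟩ := h
  obtain ⟨β', h1', h2', h3'⟩ := h'
  obtain ⟨h4, h5, h6⟩ := siegel_mul hF he h1 h1' h2 h2'
  exact ⟨_, h4, h5, by rw [← h6]; exact T.mul_mem h3 h3'⟩

theorem InY.neg {e : Fin n → F} {he : ⟪e, e⟫ = 0} {w : Fin n → F} (h : InY hF T he w) : InY hF T he (-w) := by
  obtain ⟨β, h1, h2, h3⟩ := h
  obtain ⟨h4, h5, h6⟩ := siegel_inv hF he h1 h2
  exact ⟨_, h4, h5, by rw [← h6]; exact T.inv_mem h3⟩

theorem InY.sub {e : Fin n → F} {he : ⟪e, e⟫ = 0} {w w' : Fin n → F} (h : InY hF T he w) (h' : InY hF T he w') :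
    InY hF T he (w - w') := by
  rw [sub_eq_add_neg]
  exact h.add hF (h'.neg hF)

theorem InY.sum {e : Fin n → F} {he : ⟪e, e⟫ = 0} {ι : Type*} (s : Finset ι) (f : ι → Fin n → F) (h : ∀ i ∈ s, InY hF T he (f i)) :
    InY hF T he (∑ i ∈ s, f i) := by
  classical
  induction s using Finset.induction_on with
  | empty => simpa using inY_zero hF he
  | insert a s ha ih =>
    rw [Finset.sum_insert ha]
    exact (h a (Finset.mem_insert_self _ _)).add hF
      (ih fun i hi => h i (Finset.mem_insert_of_mem hi))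

end Y

include hT hF h0 hc in
theorem inY_act {w : Fin n → F} (he : ⟪W.u k₀, W.u k₀⟫ = 0) (h : InY hF T he w) {g : SU n F q}
    (hg : act g (W.u k₀) = W.u k₀) : InY hF T he (act g w) := by
  obtain ⟨β, h1, h2, h3⟩ := h
  have h4 : ⟪act g w, W.u k₀⟫ = 0 := by rw [form_act_fixed hg, h1]
  have h5 : β + β ^ q + ⟪act g w, act g w⟫ = 0 := by rw [h_act]; exact h2
  refine ⟨β, h4, h5, ?_⟩
  rw [← siegel_conj hF g he h1 h2 he h4 h5 hg rfl]
  refine hT.cl _ h3 _ ?_
  rw [siegel_conj hF g he h1 h2 he h4 h5 hg rfl]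
  exact Re_le_US (p := p) hF h0 (siegel_mem_Re hF he h4 h5)

include hT hF h0 hc in
/-- The key step of the chain. -/
theorem Y_step (he : ⟪W.u k₀, W.u k₀⟫ = 0) {w v : Fin n → F}
    (hw : ∀ a : F, InY hF T he (a • w)) (hv : ⟪v, v⟫ = 0) (hve : ⟪v, W.u k₀⟫ = 0)
    (hwv : ⟪w, v⟫ ≠ 0) (b : F) : InY hF T he (b • v) := by
  obtain ⟨c₀, hc0, hc⟩ := exists_trace_zero hF
  have hc' : c₀ + c₀ ^ q = 0 := by rw [hc]; ring
  have hev : ⟪W.u k₀, v⟫ = 0 := hermForm_symm_zero hF hve
  have hg : act (tv hF hv hc') (W.u k₀) = W.u k₀ := by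
    rw [act_tv, hev]
    simp
  set a := b / (c₀ * ⟪w, v⟫) with ha
  have h1 := inY_act (p := p) hF hT h0 he (hw a) hg
  have h2 := h1.sub hF (hw a)
  have h3 : act (tv hF hv hc') (a • w) - a • w = b • v := by
    rw [act_tv, hermForm_smul_left, add_sub_cancel_left]
    congr 1
    rw [ha]
    field_simp
  rwa [h3] at h2

include hT hF in
/-- From transvections to Siegel elements. -/
theorem inY_of_lower {e : Fin n → F} (he : ⟪e, e⟫ = 0) (hLe : Lower W e)
    (hall : ∀ (v : Fin n → F) (hv : ⟪v, v⟫ = 0), Lower W v → ∀ (d : F) (hd : d + d ^ q = 0),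
      tv hF hv hd ∈ T)
    {v : Fin n → F} (hv : ⟪v, v⟫ = 0) (hve : ⟪v, e⟫ = 0) (hL : Lower W v) {c : F}
    (hc : c ^ q = -c) : InY hF T he (c • v) := by
  have hc' : c + c ^ q = 0 := by rw [hc]; ring
  have hev : ⟪e, v⟫ = 0 := hermForm_symm_zero hF hve
  have h1 : ⟪c • v, e⟫ = 0 := by rw [hermForm_smul_left, hve, mul_zero]
  have h2 : c + c ^ q + ⟪c • v, c • v⟫ = 0 := by
    rw [hermForm_smul_left, hermForm_smul_right, hv, hc]
    ring
  refine ⟨c, h1, h2, ?_⟩
  have hev' : ⟪e + v, e + v⟫ = 0 := by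
    simp only [hermForm_add_left, hermForm_add_right hF, he, hv, hve, hev]
    ring
  have hLev : Lower W (e + v) := fun i hi => by rw [cc_add, hLe i hi, hL i hi, add_zero]
  have hneg : (-c) + (-c) ^ q = 0 := by
    rw [pow_q_neg hF]
    linear_combination -hc'
  have h3 : siegel hF he h1 h2 = tv hF hev' hc' * tv hF hv hneg := by
    apply ext_act
    intro x
    rw [act_mul]
    simp only [act_siegel, act_tv, hermForm_add_left, hermForm_smul_left, hermForm_smul_right,
      hermForm_add_right hF, he, hv, hve, hev, hc]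
    funext i
    simp only [Pi.add_apply, Pi.sub_apply, Pi.smul_apply, smul_eq_mul]
    ring
  rw [h3]
  exact T.mul_mem (hall _ _ hLev _ _) (hall _ _ hL _ _)

theorem form_ne' (W : WB F q n) {i j : Fin n} (h : (j : ℕ) + (i : ℕ) + 1 ≠ n) :
    ⟪W.u i, W.u j⟫ = 0 := by
  apply form_ne
  rintro rfl
  apply h
  have := i.2
  rw [Fin.val_rev]
  omega

theorem form_one' (W : WB F q n) {i j : Fin n} (h : (j : ℕ) + (i : ℕ) + 1 = n) :
    ⟪W.u i, W.u j⟫ = 1 := by
  rw [W.form, if_pos]
  apply Fin.ext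
  rw [Fin.val_rev]
  omega

theorem lower_u (W : WB F q n) {k : Fin n} (h : 2 * (k : ℕ) + 1 < n) : Lower W (W.u k) := by
  intro i hi
  rw [cc_u, if_neg]
  rintro rfl
  omega

include hT hF h0 hc in
/-- All Siegel elements with centre `e`. -/
theorem inY_all (hn : 4 ≤ n) (he : ⟪W.u k₀, W.u k₀⟫ = 0)
    (hall : ∀ (v : Fin n → F) (hv : ⟪v, v⟫ = 0), Lower W v → ∀ (d : F) (hd : d + d ^ q = 0),
      tv hF hv hd ∈ T)
    {w : Fin n → F} (hw : ⟪w, W.u k₀⟫ = 0) (hwf : ⟪w, W.u (Fin.rev k₀)⟫ = 0) : InY hF T he w := by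
  have hk₀ := k₀.2
  let k₁ : Fin n := ⟨1, by omega⟩
  have hk₁ : (k₁ : ℕ) = 1 := rfl
  have hr0 : ((Fin.rev k₀ : Fin n) : ℕ) = n - 1 := by rw [Fin.val_rev, h0]
  have hr1 : ((Fin.rev k₁ : Fin n) : ℕ) = n - 2 := by rw [Fin.val_rev, hk₁]
  have hrv : ∀ i : Fin n, ((Fin.rev i : Fin n) : ℕ) = n - ((i : ℕ) + 1) := fun i => Fin.val_rev i
  -- the vector `u_1`
  have hu1 : ∀ a : F, InY hF T he (a • W.u k₁) := by
    intro a
    obtain ⟨c, hc0, hcq⟩ := exists_trace_zero hF
    have hv : ⟪(a / c) • W.u k₁, (a / c) • W.u k₁⟫ = 0 := by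
      rw [hermForm_smul_left, hermForm_smul_right, form_ne' W (by omega)]
      ring
    have hve : ⟪(a / c) • W.u k₁, W.u k₀⟫ = 0 := by
      rw [hermForm_smul_left, form_ne' W (by omega)]
      ring
    have hL : Lower W ((a / c) • W.u k₁) := fun i hi => by
      rw [cc_smul, lower_u W (by omega) i hi, mul_zero]
    have h1 := inY_of_lower hF hT he (lower_u W (by omega)) hall hv hve hL hcq
    have h2 : c • (a / c) • W.u k₁ = a • W.u k₁ := by
      rw [smul_smul]
      congr 1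
      field_simp
    rwa [h2] at h1
  have hu2 : ∀ a : F, InY hF T he (a • W.u (Fin.rev k₁)) := by
    refine Y_step (p := p) hF hT h0 he hu1 (form_ne' W (by omega)) (form_ne' W (by omega)) ?_
    rw [form_rev]
    exact one_ne_zero
  have hY : ∀ i : Fin n, (i : ℕ) ≠ 0 → (i : ℕ) ≠ n - 1 → ∀ a : F, InY hF T he (a • W.u i) := by
    intro i hi0 hi1
    have hi := i.2
    have hri := hrv i
    by_cases hi2 : (i : ℕ) = 1
    · have : i = k₁ := Fin.ext hi2
      rw [this]
      exact hu1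
    by_cases hi3 : (i : ℕ) = n - 2
    · have : i = Fin.rev k₁ := Fin.ext (by rw [hr1, hi3])
      rw [this]
      exact hu2
    by_cases hi4 : 2 * (i : ℕ) + 1 = n
    · -- the middle vector
      obtain ⟨β, hβ⟩ := exists_beta hF (W.u i)
      rw [form_one' W (by omega)] at hβ
      have hz1 : ⟪W.u (Fin.rev k₁) + β • W.u k₁ + W.u i, W.u (Fin.rev k₁) + β • W.u k₁ + W.u i⟫ = 0 := by
        simp only [hermForm_add_left, hermForm_add_right hF, hermForm_smul_left, hermForm_smul_right]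
        rw [form_ne' W (i := Fin.rev k₁) (j := Fin.rev k₁) (by omega),
          form_one' W (i := Fin.rev k₁) (j := k₁) (by omega),
          form_ne' W (i := Fin.rev k₁) (j := i) (by omega),
          form_one' W (i := k₁) (j := Fin.rev k₁) (by omega),
          form_ne' W (i := k₁) (j := k₁) (by omega),
          form_ne' W (i := k₁) (j := i) (by omega),
          form_ne' W (i := i) (j := Fin.rev k₁) (by omega),
          form_ne' W (i := i) (j := k₁) (by omega),
          form_one' W (i := i) (j := i) (by omega)]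
        linear_combination hβ
      have hz2 : ⟪W.u (Fin.rev k₁) + β • W.u k₁ + W.u i, W.u k₀⟫ = 0 := by
        simp only [hermForm_add_left, hermForm_smul_left]
        rw [form_ne' W (i := Fin.rev k₁) (j := k₀) (by omega),
          form_ne' W (i := k₁) (j := k₀) (by omega),
          form_ne' W (i := i) (j := k₀) (by omega)]
        ring
      have hz3 : ⟪W.u k₁, W.u (Fin.rev k₁) + β • W.u k₁ + W.u i⟫ ≠ 0 := by
        simp only [hermForm_add_right hF, hermForm_smul_right]
        rw [form_one' W (i := k₁) (j := Fin.rev k₁) (by omega),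
          form_ne' W (i := k₁) (j := k₁) (by omega),
          form_ne' W (i := k₁) (j := i) (by omega)]
        simp
      have h1 := Y_step (p := p) hF hT h0 he hu1 hz1 hz2 hz3
      intro b
      have h2 := ((h1 b).sub hF (hu2 b)).sub hF (hu1 (b * β))
      have h3 : b • (W.u (Fin.rev k₁) + β • W.u k₁ + W.u i) - b • W.u (Fin.rev k₁) -
          (b * β) • W.u k₁ = b • W.u i := by
        funext l
        simp only [Pi.add_apply, Pi.sub_apply, Pi.smul_apply, smul_eq_mul]
        ring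
      rwa [h3] at h2
    · -- the generic vector
      have hz1 : ⟪W.u (Fin.rev k₁) + W.u (Fin.rev i), W.u (Fin.rev k₁) + W.u (Fin.rev i)⟫ = 0 := by
        simp only [hermForm_add_left, hermForm_add_right hF]
        rw [form_ne' W (i := Fin.rev k₁) (j := Fin.rev k₁) (by omega),
          form_ne' W (i := Fin.rev k₁) (j := Fin.rev i) (by omega),
          form_ne' W (i := Fin.rev i) (j := Fin.rev k₁) (by omega),
          form_ne' W (i := Fin.rev i) (j := Fin.rev i) (by omega)]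
        ring
      have hz2 : ⟪W.u (Fin.rev k₁) + W.u (Fin.rev i), W.u k₀⟫ = 0 := by
        simp only [hermForm_add_left]
        rw [form_ne' W (i := Fin.rev k₁) (j := k₀) (by omega),
          form_ne' W (i := Fin.rev i) (j := k₀) (by omega)]
        ring
      have hz3 : ⟪W.u k₁, W.u (Fin.rev k₁) + W.u (Fin.rev i)⟫ ≠ 0 := by
        simp only [hermForm_add_right hF]
        rw [form_one' W (i := k₁) (j := Fin.rev k₁) (by omega),
          form_ne' W (i := k₁) (j := Fin.rev i) (by omega)]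
        simp
      have h1 := Y_step (p := p) hF hT h0 he hu1 hz1 hz2 hz3
      refine Y_step (p := p) hF hT h0 he h1 (form_ne' W (by omega)) (form_ne' W (by omega)) ?_
      simp only [hermForm_add_left]
      rw [form_ne' W (i := Fin.rev k₁) (j := i) (by omega),
        form_one' W (i := Fin.rev i) (j := i) (by omega)]
      simp
  rw [W.expand' w]
  refine InY.sum hF _ _ fun i _ => ?_
  by_cases hi0 : (i : ℕ) = 0
  · have : i = k₀ := Fin.ext (hi0.trans h0.symm)
    rw [this, cc_def, hwf, zero_smul]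
    exact inY_zero hF he
  by_cases hi1 : (i : ℕ) = n - 1
  · have : i = Fin.rev k₀ := Fin.ext (hi1.trans hr0.symm)
    rw [this, cc_def, Fin.rev_rev, hw, zero_smul]
    exact inY_zero hF he
  exact hY i hi0 hi1 _

include hT hF h0 hc in
/-- The radical of the stabilizer of `e`. -/
theorem Re_le_T (hn : 4 ≤ n) (he : ⟪W.u k₀, W.u k₀⟫ = 0)
    (hall : ∀ (v : Fin n → F) (hv : ⟪v, v⟫ = 0), Lower W v → ∀ (d : F) (hd : d + d ^ q = 0),
      tv hF hv hd ∈ T)
    (hLe : Lower W (W.u k₀)) : Re q (W.u k₀) ≤ T := by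
  intro g hg
  have hk₀ := k₀.2
  have hr0 : ((Fin.rev k₀ : Fin n) : ℕ) = n - 1 := by rw [Fin.val_rev, h0]
  have hef : ⟪W.u k₀, W.u (Fin.rev k₀)⟫ = 1 := form_rev W k₀
  have hfe : ⟪W.u (Fin.rev k₀), W.u k₀⟫ = 1 := hermForm_symm_one hF hef
  obtain ⟨w, β, hwe, hβ, rfl, -⟩ := exists_eq_siegel hF he hef hg
  set a := ⟪w, W.u (Fin.rev k₀)⟫ with ha
  have hw₀1 : ⟪w - a • W.u k₀, W.u k₀⟫ = 0 := by
    rw [hermForm_sub_left, hermForm_smul_left, hwe, he]
    ring
  have hw₀2 : ⟪w - a • W.u k₀, W.u (Fin.rev k₀)⟫ = 0 := by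
    rw [hermForm_sub_left, hermForm_smul_left, hef, ← ha]
    ring
  obtain ⟨β₀, h3, h4, hmem⟩ := inY_all (p := p) hF hT h0 hn he hall hw₀1 hw₀2
  have key : ∀ (w' : Fin n → F) (_ : w' = (w - a • W.u k₀) + a • W.u k₀) (h1 : ⟪w', W.u k₀⟫ = 0)
      (h2 : β + β ^ q + ⟪w', w'⟫ = 0), siegel hF he h1 h2 ∈ T := by
    rintro _ rfl h1 h2
    obtain ⟨d, hd, h5⟩ := siegel_add_line hF he h1 h2 h3 h4
    rw [h5]
    exact T.mul_mem hmem (hall _ _ hLe _ _)
  exact key w (by abel) hwe hβ

include hT hF in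
/-- Siegel elements with isotropic centre in the basis. -/
theorem siegel_mem_T (hn : 3 ≤ n) {k₁ k : Fin n} (he₁ : ⟪W.u k₁, W.u k₁⟫ = 0)
    (hRe : Re q (W.u k₁) ≤ T) (he : ⟪W.u k, W.u k⟫ = 0) {w : Fin n → F} {β : F}
    (hwe : ⟪w, W.u k⟫ = 0) (hβ : β + β ^ q + ⟪w, w⟫ = 0) (hU : W.IsU (siegel hF he hwe hβ)) :
    siegel hF he hwe hβ ∈ T := by
  obtain ⟨g, -, hg⟩ := reach_iso hF hn he₁ he (W.u_ne_zero k₁) (W.u_ne_zero k)
  have h1 : ⟪act g⁻¹ w, W.u k₁⟫ = 0 := by rw [form_act_inv hF, hg, hwe]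
  have h2 : β + β ^ q + ⟪act g⁻¹ w, act g⁻¹ w⟫ = 0 := by rw [h_act]; exact hβ
  have h3 := siegel_conj hF g he₁ h1 h2 he hwe hβ hg (act_act_inv g w)
  rw [← h3]
  refine hT.cl _ (hRe (siegel_mem_Re hF he₁ h1 h2)) _ ?_
  rw [h3]
  exact hU

include hT hF in
/-- Column clearing. -/
theorem US_le (hS : ∀ (k : Fin n) (he : ⟪W.u k, W.u k⟫ = 0) (w : Fin n → F) (β : F)
      (hwe : ⟪w, W.u k⟫ = 0) (hβ : β + β ^ q + ⟪w, w⟫ = 0), W.IsU (siegel hF he hwe hβ) →
      siegel hF he hwe hβ ∈ T) : W.US ≤ T := by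
  classical
  have hrv : ∀ i : Fin n, ((Fin.rev i : Fin n) : ℕ) = n - ((i : ℕ) + 1) := fun i => Fin.val_rev i
  have main : ∀ j : ℕ, j ≤ n / 2 → ∀ x : SU n F q, W.IsU x →
      (∀ i : Fin n, (i : ℕ) < n / 2 - j → act x (W.u (Fin.rev i)) = W.u (Fin.rev i)) → x ∈ T := by
    intro j
    induction j with
    | zero =>
      intro _ x hx hfix
      have hx1 : x = 1 := by
        apply W.ext_M
        ext a b
        rw [M_one, Matrix.one_apply, M_apply]
        by_cases ha : (a : ℕ) < n / 2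
        · have h1 := hfix a (by omega)
          rw [cc_def, ← h1, h_act, ← cc_def, cc_u]
        by_cases hb : ((Fin.rev b : Fin n) : ℕ) < n / 2
        · have h1 := hfix (Fin.rev b) (by omega)
          rw [Fin.rev_rev] at h1
          rw [h1, cc_u]
        · rw [← M_apply]
          rcases lt_trichotomy a b with h | h | h
          · exfalso
            have h1 : (a : ℕ) < b := h
            have hb2 := b.2
            rw [hrv b] at hb
            omega
          · subst h
            rw [hx.2, if_pos rfl]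
          · rw [hx.1 a b h, if_neg h.ne']
      rw [hx1]
      exact T.one_mem
    | succ j ih =>
      intro hj x hx hfix
      have hk : n / 2 - j - 1 < n := by omega
      let k : Fin n := ⟨n / 2 - j - 1, hk⟩
      have hkv : (k : ℕ) = n / 2 - j - 1 := rfl
      have hrk := hrv k
      have hx' : W.IsU x⁻¹ := W.US.inv_mem hx
      set z := act x⁻¹ (W.u (Fin.rev k)) with hz
      have hfixlt : ∀ i : Fin n, (i : ℕ) < k → act x (W.u (Fin.rev i)) = W.u (Fin.rev i) :=
        fun i hi => hfix i (by omega)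
      have hfixinv : ∀ i : Fin n, (i : ℕ) < k → act x⁻¹ (W.u (Fin.rev i)) = W.u (Fin.rev i) :=
        fun i hi => by
          conv_lhs => rw [← hfixlt i hi]
          exact act_inv_act x _
      have hz1 : ∀ i : Fin n, (i : ℕ) < k → W.cc i z = 0 := by
        intro i hi
        rw [hz, cc_def, ← hfixinv i hi, h_act]
        refine form_ne' W ?_
        have := hrv i
        omega
      have hz2 : W.cc (Fin.rev k) z = 1 := by
        rw [hz, ← M_apply, hx'.2]
      have hz3 : ∀ i : Fin n, Fin.rev k < i → W.cc i z = 0 := by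
        intro i hi
        rw [hz, ← M_apply, hx'.1 _ _ hi]
      have hkne : k ≠ Fin.rev k := by
        intro e
        have := congrArg Fin.val e
        rw [hrk, hkv] at this
        omega
      set β' := W.cc k z with hβ'
      set w' := z - W.u (Fin.rev k) - β' • W.u k with hw'
      have hz' : z = W.u (Fin.rev k) + β' • W.u k + w' := by
        rw [hw']
        abel
      have hw1 : W.cc k w' = 0 := by
        rw [hw', cc_sub, cc_sub, cc_smul, cc_u, cc_u, if_pos rfl, if_neg hkne, ← hβ']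
        ring
      have hw2 : W.cc (Fin.rev k) w' = 0 := by
        rw [hw', cc_sub, cc_sub, cc_smul, cc_u, cc_u, if_pos rfl, if_neg hkne.symm, hz2]
        ring
      have hw3 : ∀ i : Fin n, (i : ℕ) < k → W.cc i w' = 0 := by
        intro i hi
        have h1 : i ≠ Fin.rev k := by
          intro e
          have := congrArg Fin.val e
          rw [hrk] at this
          omega
        have h2 : i ≠ k := by
          intro e
          rw [e] at hi
          exact lt_irrefl _ hi
        rw [hw', cc_sub, cc_sub, cc_smul, cc_u, cc_u, if_neg h1, if_neg h2, hz1 i hi]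
        ring
      have hw4 : ∀ i : Fin n, Fin.rev k < i → W.cc i w' = 0 := by
        intro i hi
        have h1 : i ≠ Fin.rev k := hi.ne'
        have h2 : i ≠ k := by
          intro e
          have h3 : ((Fin.rev k : Fin n) : ℕ) < i := hi
          rw [e, hrk] at h3
          omega
        rw [hw', cc_sub, cc_sub, cc_smul, cc_u, cc_u, if_neg h1, if_neg h2, hz3 i hi]
        ring
      have he : ⟪W.u k, W.u k⟫ = 0 := iso_of_ne W hkne
      have hrr : ⟪W.u (Fin.rev k), W.u (Fin.rev k)⟫ = 0 := form_ne' W (by omega)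
      have hkr : ⟪W.u k, W.u (Fin.rev k)⟫ = 1 := form_rev W k
      have hrk' : ⟪W.u (Fin.rev k), W.u k⟫ = 1 := hermForm_symm_one hF hkr
      have hwe : ⟪w', W.u k⟫ = 0 := by rw [W.form_right, hw2]
      have hwr : ⟪w', W.u (Fin.rev k)⟫ = 0 := by rw [W.form_right, Fin.rev_rev, hw1]
      have hew : ⟪W.u k, w'⟫ = 0 := hermForm_symm_zero hF hwe
      have hrw : ⟪W.u (Fin.rev k), w'⟫ = 0 := hermForm_symm_zero hF hwr
      have hβ : β' + β' ^ q + ⟪w', w'⟫ = 0 := by
        have h1 : ⟪z, z⟫ = 0 := by rw [hz, h_act]; exact hrr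
        rw [hz'] at h1
        simp only [hermForm_add_left, hermForm_add_right hF, hermForm_smul_left,
          hermForm_smul_right, hrr, hrk', hrw, hkr, he, hew, hwr, hwe] at h1
        linear_combination h1
      have hsU : W.IsU (siegel hF he hwe hβ) := by
        refine isU_siegel hF he hwe hβ (fun i hi => ?_) (fun hi => ?_)
        · rcases hi.lt_or_eq with h | h
          · exact hw4 i h
          · rw [← h]
            exact hw2
        · exfalso
          have h3 : ((Fin.rev k : Fin n) : ℕ) ≤ k := hi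
          rw [hrk] at h3
          omega
      have hsT := hS k he w' β' hwe hβ hsU
      have hmul : x = (x * siegel hF he hwe hβ) * (siegel hF he hwe hβ)⁻¹ := by group
      rw [hmul]
      refine T.mul_mem (ih (by omega) _ (hx.mul hsU) fun i hi => ?_) (T.inv_mem hsT)
      rw [act_mul, act_siegel]
      by_cases hik : i = k
      · subst hik
        rw [hrk', hrw]
        have h3 : W.u (Fin.rev k) + ((1 : F) • w' - (0 : F) • W.u k + (β' * 1) • W.u k) = z := by
          rw [hz']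
          simp only [one_smul, zero_smul, sub_zero, mul_one]
          abel
        rw [h3, hz]
        exact act_act_inv x _
      · have hilt : (i : ℕ) < k := by
          have : (i : ℕ) ≠ k := fun e => hik (Fin.ext e)
          omega
        have h1 : ⟪W.u (Fin.rev i), W.u k⟫ = 0 := form_ne' W (by
          have := hrv i
          have := i.2
          omega)
        have h2 : ⟪W.u (Fin.rev i), w'⟫ = 0 := by
          rw [W.form_left hF, Fin.rev_rev, hw3 i hilt, zero_pow_q hF]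
        rw [h1, h2]
        simp only [zero_smul, mul_zero, sub_zero, add_zero]
        exact hfixlt i hilt
  exact fun x hx => main (n / 2) le_rfl x hx fun i hi => by omega

include hT hF h0 hc in
/-- **Strongly closed subgroups.** -/
theorem closed_cases (hn : 4 ≤ n) (hne : T ≠ ⊥) : T = W.US := by
  classical
  have hk₀ := k₀.2
  have hkne : k₀ ≠ Fin.rev k₀ := by
    intro e
    have := congrArg Fin.val e
    rw [Fin.val_rev, h0] at this
    omega
  have he : ⟪W.u k₀, W.u k₀⟫ = 0 := iso_of_ne W hkne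
  have hLe : Lower W (W.u k₀) := lower_u W (by omega)
  -- a central element
  have hTn : (T.subgroupOf W.US).Normal := by
    constructor
    intro x hx g
    rw [Subgroup.mem_subgroupOf] at hx ⊢
    exact hT.cl _ hx _ (by exact_mod_cast (g * x * g⁻¹).2)
  have hne' : T.subgroupOf W.US ≠ ⊥ := by
    intro h
    rw [Subgroup.subgroupOf_eq_bot] at h
    exact hne (h.eq_bot_of_le hT.le)
  have hZ := Cfsg.Agent.Lib.Basic.SylowUtil.inf_center_ne_bot_of_isPGroup
    (isPGroup_US (p := p) (W := W)) hne'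
  obtain ⟨⟨y, hy⟩, hy1⟩ := (Subgroup.ne_bot_iff_exists_ne_one).1 hZ
  have hyT : ((y : W.US) : SU n F q) ∈ T := Subgroup.mem_subgroupOf.1 hy.1
  obtain ⟨P, hP⟩ := exists_sylow (p := p) hF W
  have hfixP : ∀ g ∈ P, act g (W.u k₀) = W.u k₀ := fun g hg => by
    have hg' : g ∈ (P : Subgroup (SU n F q)) := hg
    rw [hP] at hg'
    exact fix_u0 hg' h0
  have hzc := zc_sylow p hF he (W.u_ne_zero k₀) P hfixP
  have hyz : ((y : W.US) : SU n F q) ∈ zc (P : Subgroup (SU n F q)) := by
    rw [mem_zc, hP]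
    refine ⟨y.2, fun u hu => ?_⟩
    have := Subgroup.mem_center_iff.1 hy.2 ⟨u, hu⟩
    exact (congrArg Subtype.val this).symm
  rw [hzc] at hyz
  obtain ⟨c, hc', hyc⟩ := hyz
  have hc0 : c ≠ 0 := by
    intro h
    apply hy1
    apply Subtype.ext
    apply Subtype.ext
    rw [hyc, tv_zero_coeff hF he hc' h]
    rfl
  rw [hyc] at hyT
  have hall : ∀ (v : Fin n → F) (hv : ⟪v, v⟫ = 0), Lower W v → ∀ (d : F) (hd : d + d ^ q = 0),
      tv hF hv hd ∈ T := fun v hv hL d hd =>
    tv_mem_lower hF hT (by omega) he hc0 hc' hyT hv hL hd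
  have hRe := Re_le_T (p := p) hF hT h0 hn he hall hLe
  exact le_antisymm hT.le (US_le hF hT fun k he' w β hwe hβ hU =>
    siegel_mem_T hF hT (by omega) he hRe he' hwe hβ hU)

end closed

end Cfsg.Agent.Lib.Fusion.PSU.Closed
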