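/-
The two extreme unipotent radicals of `SU_n` and their images in `PSU_n`: they contain their centralizers.
-/
import Mathlib
import Cfsg.Agent.Lib.Fusion.PSU.Closed

set_option autoImplicit false
set_option linter.unusedSectionVars false
set_option linter.unusedSimpArgs false
set_option linter.unusedVariables false

namespace Cfsg.Agent.Lib.Fusion.PSU.Radicals

open scoped Matrix
open Cfsg
open Cfsg.Agent.Lib.Classical.Herm.Basic Cfsg.Agent.Lib.Classical.Herm.Form
open Cfsg.Agent.Lib.Classical.Herm.GU Cfsg.Agent.Lib.Classical.Herm.SU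
open Cfsg.Agent.Lib.Classical.Herm.Subfield
open Cfsg.Agent.Lib.Classical.Herm.Tv Cfsg.Agent.Lib.Classical.Herm.Comm
open Cfsg.Agent.Lib.Classical.Herm.Unip
open Cfsg.Agent.Lib.Fusion.PSU.Basis Cfsg.Agent.Lib.Fusion.PSU.Basis.WB
open Cfsg.Agent.Lib.Fusion.PSU.Upper Cfsg.Agent.Lib.Fusion.PSU.Closed

variable {F : Type*} [Field F] [Fintype F] {q n : ℕ} {W : WB F q n}

local notation "⟪" x ", " y "⟫" => hermForm _ _ q x y

/-- The quotient map. -/
noncomputable abbrev pr : SU n F q →* PSU n F q := QuotientGroup.mk' _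

theorem pr_surjective : Function.Surjective (pr : SU n F q →* PSU n F q) :=
  QuotientGroup.mk'_surjective _

section unip
variable {p : ℕ} [hp : Fact p.Prime] [hc : CharP F p]

include hc in
/-- The quotient map is injective on `p`-elements. -/
theorem eq_of_pr_eq (hF : Fintype.card F = q ^ 2) (hn : 1 ≤ n) {x y : SU n F q} (hx : PEl p x)
    (hy : PEl p y) (h : pr x = pr y) : x = y := by
  have hz : x⁻¹ * y ∈ Subgroup.center (SU n F q) := QuotientGroup.eq.1 h
  set z := x⁻¹ * y with hzdef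
  have hyz : y = x * z := by rw [hzdef]; group
  obtain ⟨a, ha⟩ := hx
  obtain ⟨b, hb⟩ := hy
  have hcomm : Commute x z := (Subgroup.mem_center_iff.1 hz x)
  have hq : z ^ (p ^ (a + b)) = 1 := by
    have h1 : y ^ (p ^ (a + b)) = 1 := by rw [add_comm, pow_add, pow_mul, hb, one_pow]
    have h2 : x ^ (p ^ (a + b)) = 1 := by rw [pow_add, pow_mul, ha, one_pow]
    rw [hyz, hcomm.mul_pow, h2, one_mul] at h1
    exact h1
  obtain ⟨c, hc'⟩ := center_scalar hF z hz
  have h3 : mat (z ^ (p ^ (a + b))) = Matrix.scalar (Fin n) (c ^ (p ^ (a + b))) := by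
    have h4 : ∀ m : ℕ, mat (z ^ m) = Matrix.scalar (Fin n) (c ^ m) := by
      intro m
      induction m with
      | zero => simp [mat_one]
      | succ m ih =>
        rw [pow_succ, mat_mul, ih]
        change _ * ((z : Matrix.SpecialLinearGroup (Fin n) F) : Matrix (Fin n) (Fin n) F) = _
        rw [hc', pow_succ, map_mul]
    exact h4 _
  rw [hq, mat_one] at h3
  have h5 : c ^ (p ^ (a + b)) = 1 := by
    have h6 := congrFun (congrFun h3 ⟨0, hn⟩) ⟨0, hn⟩
    simpa [Matrix.scalar_apply] using h6.symm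
  have h7 : c = 1 := frob_eq_one (p := p) h5
  have h8 : z = 1 := by
    apply Subtype.ext
    apply Subtype.ext
    rw [hc', h7]
    simp
  rw [hyz, h8, mul_one]

theorem order_pr_of_pEl {x : SU n F q} (hx : PEl p x) : ∃ k : ℕ, orderOf (pr x) = p ^ k := by
  obtain ⟨a, ha⟩ := hx
  have h1 : orderOf (pr x) ∣ p ^ a := by
    apply orderOf_dvd_of_pow_eq_one
    rw [← map_pow, ha, map_one]
  obtain ⟨k, -, hk⟩ := (Nat.dvd_prime_pow hp.out).1 h1
  exact ⟨k, hk⟩

include hc in
/-- Commuting in `PSU` with a `p`-element implies commuting in `SU`. -/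
theorem conj_eq_of_comm (hF : Fintype.card F = q ^ 2) (hn : 1 ≤ n) {g r : SU n F q} (hr : PEl p r)
    (h : pr r * pr g = pr g * pr r) : g * r * g⁻¹ = r := by
  apply eq_of_pr_eq (p := p) hF hn (hr.conj g) hr
  rw [map_mul, map_mul, ← h, map_inv]
  group

include hc in
theorem pEl_of_mem_Re {e : Fin n → F} {g : SU n F q} (hg : g ∈ Re q e) : PEl p g :=
  ⟨2, pow_mem_Re p hg⟩

end unip

/-! ### The Siegel radical -/

/-- The pointwise stabilizer of the maximal isotropic subspace spanned by the first half of the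
Witt basis. -/
def RS (W : WB F q n) : Subgroup (SU n F q) where
  carrier := {g | ∀ i : Fin n, (i : ℕ) < n / 2 → act g (W.u i) = W.u i}
  mul_mem' := by
    intro g h hg hh i hi
    rw [act_mul, hh i hi, hg i hi]
  one_mem' := fun i _ => act_one _
  inv_mem' := by
    intro g hg i hi
    conv_lhs => rw [← hg i hi]
    exact act_inv_act g _

theorem mem_RS {g : SU n F q} :
    g ∈ RS W ↔ ∀ i : Fin n, (i : ℕ) < n / 2 → act g (W.u i) = W.u i := Iff.rfl

/-- The maximal isotropic subspace. -/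
def InE (W : WB F q n) (x : Fin n → F) : Prop := ∀ j : Fin n, n / 2 ≤ (j : ℕ) → W.cc j x = 0

theorem act_eq_of_InE {g : SU n F q} (hg : g ∈ RS W) {x : Fin n → F} (hx : InE W x) :
    act g x = x := by
  conv_lhs => rw [W.expand' x]
  rw [act_sum]
  conv_rhs => rw [W.expand' x]
  refine Finset.sum_congr rfl fun j _ => ?_
  rw [act_smul]
  by_cases hj : (j : ℕ) < n / 2
  · rw [hg j hj]
  · rw [hx j (by omega), zero_smul, zero_smul]

theorem RS_isU (W : WB F q n) {g : SU n F q} (hg : g ∈ RS W) : W.IsU g := by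
  have hrv : ∀ i : Fin n, ((Fin.rev i : Fin n) : ℕ) = n - ((i : ℕ) + 1) := fun i => Fin.val_rev i
  have hcol : ∀ a b : Fin n, (b : ℕ) < n / 2 → W.M g a b = if a = b then 1 else 0 := by
    intro a b hb
    rw [M_apply, hg b hb, cc_u]
  have hrow : ∀ a b : Fin n, n - n / 2 ≤ (a : ℕ) → W.M g a b = if a = b then 1 else 0 := by
    intro a b ha
    have h1 := hg (Fin.rev a) (by
      have := a.2
      rw [hrv]
      omega)
    rw [M_apply, cc_def, ← h1, h_act, ← cc_def, cc_u]
  have hup : W.IsUp g := by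
    intro a b hlt
    by_cases hb : (b : ℕ) < n / 2
    · rw [hcol a b hb, if_neg hlt.ne']
    · have h3 : (b : ℕ) < a := hlt
      rw [hrow a b (by omega), if_neg hlt.ne']
  refine ⟨hup, fun a => ?_⟩
  by_cases ha : (a : ℕ) < n / 2
  · rw [hcol a a ha, if_pos rfl]
  by_cases ha' : n - n / 2 ≤ (a : ℕ)
  · rw [hrow a a ha', if_pos rfl]
  have h1 := W.prod_diag hup
  rw [Finset.prod_eq_single a] at h1
  · exact h1
  · intro c _ hc
    have hc' : (c : ℕ) ≠ a := fun e => hc (Fin.ext e)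
    by_cases h2 : (c : ℕ) < n / 2
    · rw [hcol c c h2, if_pos rfl]
    · rw [hrow c c (by omega), if_pos rfl]
  · simp

theorem RS_le (W : WB F q n) : RS W ≤ W.US := fun _ hg => RS_isU W hg

/-- Elements preserving the isotropic subspace normalize `RS`. -/
theorem conj_mem_RS {g r : SU n F q} (hg : ∀ i : Fin n, (i : ℕ) < n / 2 → InE W (act g (W.u i)))
    (hr : r ∈ RS W) : g⁻¹ * r * g ∈ RS W := by
  intro i hi
  rw [act_mul, act_mul, act_eq_of_InE hr (hg i hi), act_inv_act]

theorem InE_of_isUp {g : SU n F q} (hg : W.IsUp g) (i : Fin n) (hi : (i : ℕ) < n / 2) :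
    InE W (act g (W.u i)) := by
  intro j hj
  rw [← M_apply]
  apply hg
  rw [Fin.lt_def]
  omega

/-! ### Scalars -/

section reduce
variable (hF : Fintype.card F = q ^ 2)
include hF

/-- Dividing by a scalar of norm one: if the result is unipotent, it lies in `SU` and has the same
image in `PSU`. -/
theorem exists_reduce (g : SU n F q) {l : F} (hl : l ^ (q + 1) = 1)
    (hD : ∀ x : Fin n → F, ∀ y z : Fin n → F, y = l⁻¹ • act g x - x → z = l⁻¹ • act g y - y →
      l⁻¹ • act g z - z = 0) :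
    ∃ g' : SU n F q, pr g' = pr g ∧ ∀ x, act g' x = l⁻¹ • act g x := by
  have hq := two_le_q hF
  have hl0 : l ≠ 0 := by
    rintro rfl
    rw [zero_pow (by omega)] at hl
    exact zero_ne_one hl
  set Z : Matrix (Fin n) (Fin n) F := l⁻¹ • mat g with hZ
  have hZx : ∀ x, Z *ᵥ x = l⁻¹ • act g x := by
    intro x
    rw [hZ, Matrix.smul_mulVec]
    rfl
  have hpres : Preserves q Z := by
    intro x y
    rw [hZx, hZx, hermForm_smul_left, hermForm_smul_right, h_act, inv_pow, ← mul_assoc,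
      ← mul_inv, mul_comm l, ← pow_succ, hl]
    simp
  have hdet : Z.det = 1 := by
    have h1 : IsNilpotent (Z - 1) := by
      refine ⟨3, ?_⟩
      apply Matrix.mulVec_injective
      funext x
      have hNx : ∀ y, (Z - 1) *ᵥ y = l⁻¹ • act g y - y := by
        intro y
        rw [Matrix.sub_mulVec, Matrix.one_mulVec, hZx]
      rw [pow_succ, pow_two, ← Matrix.mulVec_mulVec, ← Matrix.mulVec_mulVec, Matrix.zero_mulVec,
        hNx, hNx, hNx]
      exact hD x _ _ rfl rfl
    have h2 := det_one_add_of_nilpotent _ h1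
    rwa [add_sub_cancel] at h2
  refine ⟨mkSU Z hdet hpres, ?_, fun x => hZx x⟩
  -- the scalar
  have hmat : mat g = l • Z := by
    rw [hZ, smul_smul, mul_inv_cancel₀ hl0, one_smul]
  have hdetl : (Matrix.scalar (Fin n) l).det = 1 := by
    have h1 : (mat g).det = 1 := g.1.2
    rw [hmat, Matrix.det_smul, hdet, mul_one] at h1
    rw [det_scalar']
    simpa using h1
  let s : SU n F q := mkSU (Matrix.scalar (Fin n) l) hdetl (preserves_scalar l hl)
  have hs : ∀ x, act s x = l • x := fun x => scalar_mulVec' l x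
  have hsc : s ∈ Subgroup.center (SU n F q) := by
    rw [Subgroup.mem_center_iff]
    intro A
    apply ext_act
    intro x
    rw [act_mul, act_mul, hs, hs, act_smul]
  have hg : g = s * mkSU Z hdet hpres := by
    apply ext_act
    intro x
    rw [act_mul, hs]
    change act g x = l • (Z *ᵥ x)
    rw [hZx, smul_smul, mul_inv_cancel₀ hl0, one_smul]
  have hs1 : pr s = 1 := (QuotientGroup.eq_one_iff _).2 hsc
  conv_rhs => rw [hg, map_mul, hs1, one_mul]

theorem tv_fix_imp (g : SU n F q) {v : Fin n → F} (hv : ⟪v, v⟫ = 0) (hv0 : v ≠ 0) {c : F}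
    (hc0 : c ≠ 0) (hc : c + c ^ q = 0) (h : g * tv hF hv hc * g⁻¹ = tv hF hv hc) :
    ∃ l : F, l ^ (q + 1) = 1 ∧ act g v = l • v := by
  have hgv : ⟪act g v, act g v⟫ = 0 := by rw [h_act]; exact hv
  rw [conj_tv hF g hv hgv hc] at h
  obtain ⟨x, hx⟩ : ∃ x, ⟪x, v⟫ ≠ 0 := by
    by_contra hcon
    push Not at hcon
    exact hv0 (hermForm_nondegenerate_right hF n v hcon)
  have h1 : ∀ y, (c * ⟪y, act g v⟫) • act g v = (c * ⟪y, v⟫) • v := by
    intro y
    have := congrArg (fun t => act t y) h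
    simp only [act_tv] at this
    exact add_left_cancel this
  have h2 := h1 x
  have h3 : ⟪x, act g v⟫ ≠ 0 := by
    intro h0
    rw [h0, mul_zero, zero_smul] at h2
    exact smul_ne_zero (mul_ne_zero hc0 hx) hv0 h2.symm
  set l := ⟪x, v⟫ / ⟪x, act g v⟫ with hl
  have hl0 : l ≠ 0 := div_ne_zero hx h3
  have h4 : act g v = l • v := by
    have h5 : (c * ⟪x, act g v⟫)⁻¹ • (c * ⟪x, act g v⟫) • act g v =
        (c * ⟪x, act g v⟫)⁻¹ • (c * ⟪x, v⟫) • v := by rw [h2]
    rw [smul_smul, smul_smul, inv_mul_cancel₀ (mul_ne_zero hc0 h3), one_smul] at h5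
    rw [h5, hl]
    congr 1
    field_simp
  refine ⟨l, ?_, h4⟩
  have h5 := h1 x
  rw [h4, hermForm_smul_right, smul_smul] at h5
  obtain ⟨γ, hγ⟩ := Function.ne_iff.1 hv0
  have h6 := congrFun h5 γ
  simp only [Pi.smul_apply, smul_eq_mul, Pi.zero_apply] at h6 hγ
  have h7 : (l ^ q * l - 1) * (c * ⟪x, v⟫ * v γ) = 0 := by linear_combination h6
  have h8 := (mul_eq_zero.1 h7).resolve_right (mul_ne_zero (mul_ne_zero hc0 hx) hγ)
  rw [pow_succ]
  linear_combination h8

theorem siegel_fix_imp (g : SU n F q) {e f w : Fin n → F} {β l : F} (he : ⟪e, e⟫ = 0)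
    (hwe : ⟪w, e⟫ = 0) (hβ : β + β ^ q + ⟪w, w⟫ = 0) (hfe : ⟪f, e⟫ = 1) (hl : l ^ (q + 1) = 1)
    (hge : act g e = l • e) (h : g * siegel hF he hwe hβ * g⁻¹ = siegel hF he hwe hβ) :
    ∃ d : F, act g w = l • w + d • e := by
  have he' : ⟪l • e, l • e⟫ = 0 := by rw [hermForm_smul_left, hermForm_smul_right, he]; ring
  have hwe' : ⟪act g w, l • e⟫ = 0 := by rw [← hge, h_act, hwe]
  have hβ' : β + β ^ q + ⟪act g w, act g w⟫ = 0 := by rw [h_act]; exact hβ
  rw [siegel_conj hF g he hwe hβ he' hwe' hβ' hge rfl] at h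
  have h1 := congrArg (fun t => act t f) h
  simp only [act_siegel, hermForm_smul_right, hfe, mul_one] at h1
  have hlq : l ^ q * l = 1 := by
    rw [pow_succ] at hl
    exact hl
  refine ⟨l * (⟪f, act g w⟫ * l - ⟪f, w⟫), ?_⟩
  funext i
  have h2 := congrFun h1 i
  simp only [Pi.add_apply, Pi.sub_apply, Pi.smul_apply, smul_eq_mul] at h2 ⊢
  have h3 : act g w i * (l ^ q * l) = l * w i + l * (⟪f, act g w⟫ * l - ⟪f, w⟫) * e i := by
    linear_combination l * h2 + (-l * β * e i) * hlq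
  rw [hlq, mul_one] at h3
  rw [h3]

/-- If `g` fixes the line of `e` and acts as a scalar on `e^⊥/e`, it is unipotent up to the scalar. -/
theorem D_cube (g : SU n F q) {e : Fin n → F} {l : F} (hl : l ^ (q + 1) = 1) (hge : act g e = l • e)
    (hw : ∀ w : Fin n → F, ⟪w, e⟫ = 0 → ∃ d : F, act g w = l • w + d • e)
    (x y z : Fin n → F) (hy : y = l⁻¹ • act g x - x) (hz : z = l⁻¹ • act g y - y) :
    l⁻¹ • act g z - z = 0 := by
  have hq := two_le_q hF
  have hl0 : l ≠ 0 := by
    rintro rfl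
    rw [zero_pow (by omega)] at hl
    exact zero_ne_one hl
  have hlq : l ^ q * l = 1 := by
    rw [pow_succ] at hl
    exact hl
  have hy0 : ⟪y, e⟫ = 0 := by
    have h1 : ⟪act g x, act g e⟫ = ⟪x, e⟫ := h_act g x e
    rw [hge, hermForm_smul_right] at h1
    rw [hy, hermForm_sub_left, hermForm_smul_left]
    have h2 : ⟪act g x, e⟫ = l * ⟪x, e⟫ := by
      rw [← h1, ← mul_assoc, mul_comm l, hlq, one_mul]
    rw [h2]
    field_simp
    ring
  obtain ⟨d, hd⟩ := hw y hy0
  have hz' : z = (l⁻¹ * d) • e := by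
    rw [hz, hd, smul_add, smul_smul, inv_mul_cancel₀ hl0, one_smul, add_sub_cancel_left, smul_smul]
  rw [hz', act_smul, hge, smul_smul, smul_smul]
  have : l⁻¹ * (l⁻¹ * d) * l = l⁻¹ * d := by
    field_simp
  rw [this, sub_self]

end reduce

/-! ### The images in `PSU` -/

section images
variable {p : ℕ} [hp : Fact p.Prime] [hc : CharP F p]

/-- The image of the unitriangular group. -/
noncomputable def UP (W : WB F q n) : Subgroup (PSU n F q) := W.US.map pr

/-- The image of the radical of the stabilizer of a vector. -/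
noncomputable def RQ (q : ℕ) (e : Fin n → F) : Subgroup (PSU n F q) := (Re q e).map pr

/-- The image of the Siegel radical. -/
noncomputable def RSP (W : WB F q n) : Subgroup (PSU n F q) := (RS W).map pr

instance : Finite (PSU n F q) := inferInstanceAs (Finite (_ ⧸ _))

theorem pr_mem_normalizer_RQ {e : Fin n → F} {g : SU n F q} {a : F} (ha : a ≠ 0)
    (hg : act g e = a • e) :
    pr g ∈ Subgroup.normalizer ((RQ q e : Subgroup _) : Set (PSU n F q)) := by
  apply Cfsg.Agent.Lib.Fusion.SimpleCriterion2.mem_normalizer_of_conj_le'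
  rintro _ ⟨r, hr, rfl⟩
  exact ⟨g * r * g⁻¹, conj_mem_Re ha hg hr, by simp⟩

theorem pr_mem_normalizer_RSP {g : SU n F q}
    (hg : ∀ i : Fin n, (i : ℕ) < n / 2 → InE W (act g (W.u i))) :
    pr g ∈ Subgroup.normalizer ((RSP W : Subgroup _) : Set (PSU n F q)) := by
  have : (pr g)⁻¹ ∈ Subgroup.normalizer ((RSP W : Subgroup _) : Set (PSU n F q)) := by
    apply Cfsg.Agent.Lib.Fusion.SimpleCriterion2.mem_normalizer_of_conj_le'
    rintro _ ⟨r, hr, rfl⟩
    exact ⟨g⁻¹ * r * g, conj_mem_RS hg hr, by simp⟩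
  simpa using Subgroup.inv_mem _ this

theorem UP_le_normalizer_RQ {k₀ : Fin n} (h0 : (k₀ : ℕ) = 0) :
    UP W ≤ Subgroup.normalizer ((RQ q (W.u k₀) : Subgroup _) : Set (PSU n F q)) := by
  rintro _ ⟨u, hu, rfl⟩
  exact pr_mem_normalizer_RQ one_ne_zero (by rw [fix_u0 hu h0, one_smul])

theorem UP_le_normalizer_RSP :
    UP W ≤ Subgroup.normalizer ((RSP W : Subgroup _) : Set (PSU n F q)) := by
  rintro _ ⟨u, hu, rfl⟩
  exact pr_mem_normalizer_RSP (InE_of_isUp hu.1)

include hc in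
theorem centralizer_RQ_le (hF : Fintype.card F = q ^ 2) (hn : 1 ≤ n) {k₀ : Fin n}
    (he : ⟪W.u k₀, W.u k₀⟫ = 0) (hk : ⟪W.u (Fin.rev k₀), W.u k₀⟫ = 1) :
    Subgroup.centralizer ((RQ q (W.u k₀) : Subgroup _) : Set (PSU n F q)) ≤ RQ q (W.u k₀) := by
  intro x hx
  obtain ⟨g, rfl⟩ := pr_surjective x
  have hcomm : ∀ r ∈ Re q (W.u k₀), g * r * g⁻¹ = r := fun r hr =>
    conj_eq_of_comm (p := p) hF hn (pEl_of_mem_Re (p := p) hr)
      (Subgroup.mem_centralizer_iff.1 hx _ ⟨r, hr, rfl⟩)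
  obtain ⟨c₀, hc0, hcq⟩ := exists_trace_zero hF
  have hc' : c₀ + c₀ ^ q = 0 := by rw [hcq]; ring
  obtain ⟨l, hl, hge⟩ := tv_fix_imp hF g he (W.u_ne_zero k₀) hc0 hc' (hcomm _ (tv_mem_Re hF he hc'))
  have hq := two_le_q hF
  have hl0 : l ≠ 0 := by
    rintro rfl
    rw [zero_pow (by omega)] at hl
    exact zero_ne_one hl
  have hw : ∀ w : Fin n → F, ⟪w, W.u k₀⟫ = 0 → ∃ d : F, act g w = l • w + d • W.u k₀ := by
    intro w hw
    obtain ⟨β, hβ⟩ := exists_beta hF w
    exact siegel_fix_imp hF g he hw hβ hk hl hge (hcomm _ (siegel_mem_Re hF he hw hβ))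
  obtain ⟨g', hg1, hg2⟩ := exists_reduce hF g hl (D_cube hF g hl hge hw)
  refine ⟨g', ⟨?_, fun w hw' => ?_⟩, hg1⟩
  · rw [hg2, hge, smul_smul, inv_mul_cancel₀ hl0, one_smul]
  · obtain ⟨d, hd⟩ := hw w hw'
    refine ⟨l⁻¹ * d, ?_⟩
    rw [hg2, hd, smul_add, smul_smul, inv_mul_cancel₀ hl0, one_smul, smul_smul]

include hc in
theorem centralizer_RSP_le (hF : Fintype.card F = q ^ 2) (hn : 4 ≤ n) {k₀ : Fin n}
    (h0 : (k₀ : ℕ) = 0) :
    Subgroup.centralizer ((RSP W : Subgroup _) : Set (PSU n F q)) ≤ RSP W := by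
  intro x hx
  obtain ⟨g, rfl⟩ := pr_surjective x
  have hrv : ∀ i : Fin n, ((Fin.rev i : Fin n) : ℕ) = n - ((i : ℕ) + 1) := fun i => Fin.val_rev i
  have hcomm : ∀ r ∈ RS W, g * r * g⁻¹ = r := fun r hr =>
    conj_eq_of_comm (p := p) hF (by omega) (pEl_of_isU (p := p) (RS_isU W hr))
      (Subgroup.mem_centralizer_iff.1 hx _ ⟨r, hr, rfl⟩)
  obtain ⟨c₀, hc0, hcq⟩ := exists_trace_zero hF
  have hc' : c₀ + c₀ ^ q = 0 := by rw [hcq]; ring
  have hq := two_le_q hF
  -- isotropic vectors in the basis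
  have hiso : ∀ i : Fin n, (i : ℕ) < n / 2 → ⟪W.u i, W.u i⟫ = 0 := fun i hi =>
    form_ne' W (by omega)
  have htv : ∀ (v : Fin n → F) (hv : ⟪v, v⟫ = 0), (∀ i : Fin n, (i : ℕ) < n / 2 → ⟪W.u i, v⟫ = 0) →
      v ≠ 0 → ∃ l : F, l ^ (q + 1) = 1 ∧ act g v = l • v := by
    intro v hv h1 hv0
    refine tv_fix_imp hF g hv hv0 hc0 hc' (hcomm _ fun i hi => ?_)
    rw [act_tv, h1 i hi]
    simp
  have hk₀ := k₀.2
  have hk₀r : (k₀ : ℕ) < n / 2 := by omega
  obtain ⟨l, hl, hge⟩ := htv (W.u k₀) (hiso k₀ hk₀r) (fun i hi => form_ne' W (by omega))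
    (W.u_ne_zero k₀)
  have hl0 : l ≠ 0 := by
    rintro rfl
    rw [zero_pow (by omega)] at hl
    exact zero_ne_one hl
  have hall : ∀ i : Fin n, (i : ℕ) < n / 2 → act g (W.u i) = l • W.u i := by
    intro i hi
    by_cases hi0 : i = k₀
    · rw [hi0, hge]
    obtain ⟨l', hl', hi'⟩ := htv (W.u i) (hiso i hi) (fun j hj => form_ne' W (by omega))
      (W.u_ne_zero i)
    have hsum : ⟪W.u i + W.u k₀, W.u i + W.u k₀⟫ = 0 := by
      simp only [hermForm_add_left, hermForm_add_right hF]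
      rw [form_ne' W (i := i) (j := i) (by omega), form_ne' W (i := i) (j := k₀) (by omega),
        form_ne' W (i := k₀) (j := i) (by omega), form_ne' W (i := k₀) (j := k₀) (by omega)]
      ring
    have hne : W.u i + W.u k₀ ≠ 0 := by
      intro h
      have h1 := congrArg (W.cc i) h
      rw [cc_add, cc_u, cc_u, cc_zero, if_pos rfl, if_neg hi0, add_zero] at h1
      exact one_ne_zero h1
    obtain ⟨m, -, hm⟩ := htv _ hsum (fun j hj => by
      rw [hermForm_add_right hF, form_ne' W (by omega), form_ne' W (by omega), add_zero]) hne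
    rw [act_add, hi', hge] at hm
    have h1 := congrArg (W.cc i) hm
    have h2 := congrArg (W.cc k₀) hm
    simp only [cc_add, cc_smul, cc_u, if_neg hi0, if_neg (Ne.symm hi0), if_true, mul_zero, mul_one,
      add_zero, zero_add] at h1 h2
    rw [hi', h1, ← h2]
  -- the middle vector
  have hmid : ∀ j : Fin n, 2 * (j : ℕ) + 1 = n → ∃ d : F, act g (W.u j) = l • W.u j + d • W.u k₀ := by
    intro j hj
    have he := hiso k₀ hk₀r
    have hwe : ⟪W.u j, W.u k₀⟫ = 0 := form_ne' W (by omega)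
    obtain ⟨β, hβ⟩ := exists_beta hF (W.u j)
    refine siegel_fix_imp hF g he hwe hβ (f := W.u (Fin.rev k₀)) (form_one' W (by
      rw [hrv]; omega)) hl hge (hcomm _ fun i hi => ?_)
    rw [act_siegel, form_ne' W (i := i) (j := k₀) (by omega), form_ne' W (i := i) (j := j) (by omega)]
    simp
  -- unipotence
  have hD1 : ∀ j : Fin n, (j : ℕ) < n / 2 → l⁻¹ • act g (W.u j) - W.u j = 0 := by
    intro j hj
    rw [hall j hj, smul_smul, inv_mul_cancel₀ hl0, one_smul, sub_self]
  have hexp : ∀ y : Fin n → F, l⁻¹ • act g y - y = ∑ j, W.cc j y • (l⁻¹ • act g (W.u j) - W.u j) := by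
    intro y
    conv_lhs => rw [W.expand' y, act_sum]
    rw [Finset.smul_sum, ← Finset.sum_sub_distrib]
    refine Finset.sum_congr rfl fun j _ => ?_
    rw [act_smul, smul_sub, smul_smul, smul_smul, mul_comm]
  have hinE : ∀ y : Fin n → F, (∀ j : Fin n, n - n / 2 ≤ (j : ℕ) → W.cc j y = 0) →
      InE W (l⁻¹ • act g y - y) := by
    intro y hy i hi
    rw [hexp, cc_sum]
    refine Finset.sum_eq_zero fun j _ => ?_
    by_cases hj : (j : ℕ) < n / 2
    · rw [hD1 j hj, smul_zero, cc_zero]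
    by_cases hj' : n - n / 2 ≤ (j : ℕ)
    · rw [hy j hj', zero_smul, cc_zero]
    · obtain ⟨d, hd⟩ := hmid j (by omega)
      rw [hd, smul_add, smul_smul, inv_mul_cancel₀ hl0, one_smul, smul_smul, add_sub_cancel_left,
        cc_smul, cc_smul, cc_u, if_neg]
      · ring
      · rintro rfl
        omega
  have hcube : ∀ x y z : Fin n → F, y = l⁻¹ • act g x - x → z = l⁻¹ • act g y - y →
      l⁻¹ • act g z - z = 0 := by
    intro x y z hy hz
    have hy1 : ∀ j : Fin n, n - n / 2 ≤ (j : ℕ) → W.cc j y = 0 := by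
      intro j hj
      have hrj : ((Fin.rev j : Fin n) : ℕ) < n / 2 := by
        have := j.2
        rw [hrv]
        omega
      have h1 : ⟪act g x, act g (W.u (Fin.rev j))⟫ = ⟪x, W.u (Fin.rev j)⟫ := h_act g x _
      rw [hall _ hrj, hermForm_smul_right] at h1
      have hlq : l ^ q * l = 1 := by
        rw [pow_succ] at hl
        exact hl
      have h2 : ⟪act g x, W.u (Fin.rev j)⟫ = l * ⟪x, W.u (Fin.rev j)⟫ := by
        rw [← h1, ← mul_assoc, mul_comm l, hlq, one_mul]
      rw [hy, cc_sub, cc_smul, cc_def, cc_def, h2]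
      field_simp
      ring
    have hz1 := hinE y hy1
    rw [← hz] at hz1
    rw [hexp]
    refine Finset.sum_eq_zero fun j _ => ?_
    by_cases hj : (j : ℕ) < n / 2
    · rw [hD1 j hj, smul_zero]
    · rw [hz1 j (by omega), zero_smul]
  obtain ⟨g', hg1, hg2⟩ := exists_reduce hF g hl hcube
  refine ⟨g', fun i hi => ?_, hg1⟩
  rw [hg2, hall i hi, smul_smul, inv_mul_cancel₀ hl0, one_smul]

end images

end Cfsg.Agent.Lib.Fusion.PSU.Radicals
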