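/-
Diagonal elements of `SU_n` in a Witt basis, and diagonal elements which are products of root elements.
-/
import Mathlib
import Cfsg.Agent.Lib.Fusion.PSU.Radicals

set_option autoImplicit false
set_option linter.unusedSectionVars false
set_option linter.unusedSimpArgs false
set_option linter.unusedVariables false

namespace Cfsg.Agent.Lib.Fusion.PSU.Torus

open scoped Matrix
open Cfsg
open Cfsg.Agent.Lib.Classical.Herm.Basic Cfsg.Agent.Lib.Classical.Herm.Form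
open Cfsg.Agent.Lib.Classical.Herm.GU Cfsg.Agent.Lib.Classical.Herm.SU
open Cfsg.Agent.Lib.Classical.Herm.Subfield
open Cfsg.Agent.Lib.Classical.Herm.Tv Cfsg.Agent.Lib.Classical.Herm.Comm
open Cfsg.Agent.Lib.Classical.Herm.Unip
open Cfsg.Agent.Lib.Fusion.PSU.Basis Cfsg.Agent.Lib.Fusion.PSU.Basis.WB
open Cfsg.Agent.Lib.Fusion.PSU.Upper Cfsg.Agent.Lib.Fusion.PSU.Closed
open Cfsg.Agent.Lib.Fusion.PSU.Radicals

variable {F : Type*} [Field F] [Fintype F] {q n : ℕ} {W : WB F q n}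

local notation "⟪" x ", " y "⟫" => hermForm _ _ q x y

/-! ### Upper triangular elements and their diagonal -/

section diag
variable (hF : Fintype.card F = q ^ 2)
include hF

theorem form_eq (W : WB F q n) (x y : Fin n → F) :
    ⟪x, y⟫ = ∑ i, W.cc i x * (W.cc (Fin.rev i) y) ^ q := by
  conv_lhs => rw [W.expand' x]
  rw [hermForm_sum_left]
  refine Finset.sum_congr rfl fun i _ => ?_
  rw [W.form_left hF]

/-- The diagonal entries of an upper triangular element come in pairs. -/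
theorem diag_pair {g : SU n F q} (hg : W.IsUp g) (i : Fin n) :
    W.M g i i * (W.M g (Fin.rev i) (Fin.rev i)) ^ q = 1 := by
  have h := h_act g (W.u i) (W.u (Fin.rev i))
  rw [form_rev, form_eq hF W, Finset.sum_eq_single i] at h
  · exact h
  · intro l _ hl
    rcases lt_or_gt_of_ne hl with h1 | h1
    · have h2 : W.cc (Fin.rev l) (act g (W.u (Fin.rev i))) = 0 := by
        rw [← M_apply]
        exact hg _ _ (Fin.rev_lt_rev.2 h1)
      rw [h2, zero_pow_q hF, mul_zero]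
    · have h2 : W.cc l (act g (W.u i)) = 0 := by
        rw [← M_apply]
        exact hg _ _ h1
      rw [h2, zero_mul]
  · simp

theorem isU_of_half {g : SU n F q} (hg : W.IsUp g)
    (h : ∀ i : Fin n, (i : ℕ) < n / 2 → W.M g i i = 1) : W.IsU g := by
  have hrv : ∀ i : Fin n, ((Fin.rev i : Fin n) : ℕ) = n - ((i : ℕ) + 1) := fun i => Fin.val_rev i
  have h2 : ∀ i : Fin n, n - n / 2 ≤ (i : ℕ) → W.M g i i = 1 := by
    intro i hi
    have hi2 := i.2
    have h3 := diag_pair hF hg (Fin.rev i)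
    rw [Fin.rev_rev, h _ (by rw [hrv]; omega), one_mul] at h3
    have h4 := congrArg (fun t : F => t ^ q) h3
    simpa [pow_q_pow_q hF] using h4
  refine ⟨hg, fun a => ?_⟩
  by_cases ha : (a : ℕ) < n / 2
  · exact h a ha
  by_cases ha' : n - n / 2 ≤ (a : ℕ)
  · exact h2 a ha'
  have h1 := W.prod_diag hg
  rw [Finset.prod_eq_single a] at h1
  · exact h1
  · intro c _ hc
    have hc' : (c : ℕ) ≠ a := fun e => hc (Fin.ext e)
    by_cases h3 : (c : ℕ) < n / 2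
    · exact h c h3
    · exact h2 c (by omega)
  · simp

end diag

/-- Diagonal elements. -/
def IsDiag (W : WB F q n) (h : SU n F q) (t : Fin n → F) : Prop :=
  ∀ i, act h (W.u i) = t i • W.u i

theorem IsDiag.M_eq {h : SU n F q} {t : Fin n → F} (hh : IsDiag W h t) :
    W.M h = Matrix.diagonal t := by
  ext i j
  rw [M_apply, hh j, cc_smul, cc_u, Matrix.diagonal_apply]
  by_cases hij : i = j
  · subst hij
    simp
  · simp [hij]

theorem IsDiag.ne_zero {h : SU n F q} {t : Fin n → F} (hh : IsDiag W h t) (i : Fin n) : t i ≠ 0 := by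
  intro h0
  have h1 := hh i
  rw [h0, zero_smul] at h1
  exact act_ne_zero h (W.u_ne_zero i) h1

theorem IsDiag.inv {h : SU n F q} {t : Fin n → F} (hh : IsDiag W h t) :
    IsDiag W h⁻¹ (fun i => (t i)⁻¹) := by
  intro i
  have h1 := act_inv_act h (W.u i)
  rw [hh i, act_smul] at h1
  have h2 : (t i)⁻¹ • (t i • act h⁻¹ (W.u i)) = (t i)⁻¹ • W.u i := by rw [h1]
  rwa [smul_smul, inv_mul_cancel₀ (hh.ne_zero i), one_smul] at h2

theorem IsDiag.isUp {h : SU n F q} {t : Fin n → F} (hh : IsDiag W h t) : W.IsUp h := by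
  intro i j hlt
  rw [hh.M_eq, Matrix.diagonal_apply_ne _ hlt.ne']

theorem IsDiag.M_self {h : SU n F q} {t : Fin n → F} (hh : IsDiag W h t) (i : Fin n) :
    W.M h i i = t i := by
  rw [hh.M_eq, Matrix.diagonal_apply_eq]

theorem IsDiag.conj_isU {h : SU n F q} {t : Fin n → F} (hh : IsDiag W h t) {u : SU n F q}
    (hu : W.IsU u) : W.IsU (h * u * h⁻¹) := by
  have hentry : ∀ i j, W.M (h * u * h⁻¹) i j = t i * W.M u i j * (t j)⁻¹ := by
    intro i j
    rw [M_mul, M_mul, hh.M_eq, hh.inv.M_eq, Matrix.mul_diagonal, Matrix.diagonal_mul]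
  constructor
  · intro i j hlt
    rw [hentry, hu.1 i j hlt]
    simp
  · intro i
    rw [hentry, hu.2, mul_one, mul_inv_cancel₀ (hh.ne_zero i)]

theorem IsDiag.pr_mem_normalizer {h : SU n F q} {t : Fin n → F} (hh : IsDiag W h t) :
    pr h ∈ Subgroup.normalizer ((UP W : Subgroup _) : Set (PSU n F q)) := by
  apply Cfsg.Agent.Lib.Fusion.SimpleCriterion2.mem_normalizer_of_conj_le'
  rintro _ ⟨u, hu, rfl⟩
  exact ⟨h * u * h⁻¹, hh.conj_isU hu, by simp⟩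

/-! ### The root elements of the Siegel Levi -/

section levi
variable (hF : Fintype.card F = q ^ 2)
variable {e e' f f' : Fin n → F}

include hF in
theorem pair_facts₁ (he : ⟪e, e⟫ = 0) (hf' : ⟪f', f'⟫ = 0) (hf'e : ⟪f', e⟫ = 0) (c : F) :
    ⟪(-c ^ q) • f', e⟫ = 0 ∧ (0 : F) + (0 : F) ^ q + ⟪(-c ^ q) • f', (-c ^ q) • f'⟫ = 0 := by
  constructor
  · rw [hermForm_smul_left, hf'e, mul_zero]
  · rw [hermForm_smul_left, hermForm_smul_right, hf', zero_pow_q hF]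
    ring

/-- The root element `e' ↦ e' + c e`, `f ↦ f - c^q f'`. -/
noncomputable def XX (he : ⟪e, e⟫ = 0) (hf' : ⟪f', f'⟫ = 0) (hf'e : ⟪f', e⟫ = 0) (c : F) : SU n F q :=
  siegel hF he (pair_facts₁ hF he hf' hf'e c).1 (pair_facts₁ hF he hf' hf'e c).2

theorem act_XX (he : ⟪e, e⟫ = 0) (hf' : ⟪f', f'⟫ = 0) (hf'e : ⟪f', e⟫ = 0) (c : F)
    (x : Fin n → F) :
    act (XX hF he hf' hf'e c) x = x + ((-c ^ q) * ⟪x, e⟫) • f' + (c * ⟪x, f'⟫) • e := by
  rw [XX, act_siegel, hermForm_smul_right, pow_q_neg hF, pow_q_pow_q hF]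
  funext i
  simp only [Pi.add_apply, Pi.sub_apply, Pi.smul_apply, smul_eq_mul]
  ring

theorem XX_mem_Re (he : ⟪e, e⟫ = 0) (hf' : ⟪f', f'⟫ = 0) (hf'e : ⟪f', e⟫ = 0) (c : F) :
    XX hF he hf' hf'e c ∈ Re q e := siegel_mem_Re hF he _ _

/-- The pairings of two orthogonal hyperbolic pairs. -/
structure TwoPairs (q : ℕ) (e e' f f' : Fin n → F) : Prop where
  ee : hermForm n F q e e = 0
  ee' : hermForm n F q e e' = 0
  ef : hermForm n F q e f = 1
  ef' : hermForm n F q e f' = 0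
  e'e : hermForm n F q e' e = 0
  e'e' : hermForm n F q e' e' = 0
  e'f : hermForm n F q e' f = 0
  e'f' : hermForm n F q e' f' = 1
  fe : hermForm n F q f e = 1
  fe' : hermForm n F q f e' = 0
  ff : hermForm n F q f f = 0
  ff' : hermForm n F q f f' = 0
  f'e : hermForm n F q f' e = 0
  f'e' : hermForm n F q f' e' = 1
  f'f : hermForm n F q f' f = 0
  f'f' : hermForm n F q f' f' = 0

/-- The Weyl element of the `SL₂` of two pairs. -/
noncomputable def NN (P : TwoPairs q e e' f f') (s : F) : SU n F q :=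
  XX hF P.ee P.f'f' P.f'e s * (XX hF P.e'e' P.ff P.fe' (-s⁻¹) * XX hF P.ee P.f'f' P.f'e s)

theorem act_NN (P : TwoPairs q e e' f f') {s : F} (hs : s ≠ 0) (x : Fin n → F) :
    act (NN hF P s) x = x + (⟪x, f'⟫ * s - ⟪x, f⟫) • e + (-(⟪x, f⟫ * s⁻¹) - ⟪x, f'⟫) • e'
      + (⟪x, e'⟫ * (s ^ q)⁻¹ - ⟪x, e⟫) • f + (-(⟪x, e⟫ * s ^ q) - ⟪x, e'⟫) • f' := by
  have hsq : s ^ q ≠ 0 := pow_ne_zero _ hs
  simp only [NN, act_mul, act_XX, hermForm_add_left, hermForm_smul_left, P.ee, P.ee', P.ef, P.ef',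
    P.e'e, P.e'e', P.e'f, P.e'f', P.fe, P.fe', P.ff, P.ff', P.f'e, P.f'e', P.f'f, P.f'f',
    pow_q_neg hF, inv_pow]
  funext i
  simp only [Pi.add_apply, Pi.smul_apply, smul_eq_mul]
  field_simp
  ring

/-- The torus element of the `SL₂` of two pairs. -/
noncomputable def HH (P : TwoPairs q e e' f f') (s : F) : SU n F q :=
  NN hF P s * NN hF P (-1)

theorem act_HH (P : TwoPairs q e e' f f') {s : F} (hs : s ≠ 0) (x : Fin n → F) :
    act (HH hF P s) x = x + ((s - 1) * ⟪x, f⟫) • e + ((s⁻¹ - 1) * ⟪x, f'⟫) • e'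
      + (((s ^ q)⁻¹ - 1) * ⟪x, e⟫) • f + ((s ^ q - 1) * ⟪x, e'⟫) • f' := by
  have hsq : s ^ q ≠ 0 := pow_ne_zero _ hs
  have hm1 : (-1 : F) ≠ 0 := neg_ne_zero.2 one_ne_zero
  rw [HH, act_mul, act_NN hF P hm1, act_NN hF P hs]
  simp only [hermForm_add_left, hermForm_smul_left, P.ee, P.ee', P.ef, P.ef',
    P.e'e, P.e'e', P.e'f, P.e'f', P.fe, P.fe', P.ff, P.ff', P.f'e, P.f'e', P.f'f, P.f'f',
    pow_q_neg hF, one_pow]
  funext i
  simp only [Pi.add_apply, Pi.smul_apply, smul_eq_mul]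
  field_simp
  ring

end levi

/-! ### Rank one tori -/

section rankone
variable (hF : Fintype.card F = q ^ 2)
include hF

/-- The torus element of a hyperbolic pair for a scalar of the subfield, in a subgroup containing the
transvections. -/
theorem exists_torus_in {e f : Fin n → F} (he : ⟪e, e⟫ = 0) (hf : ⟪f, f⟫ = 0) (hef : ⟪e, f⟫ = 1)
    {ν : F} (hν0 : ν ≠ 0) (hν : ν ^ q = ν) (L : Subgroup (SU n F q))
    (hL : ∀ (v : Fin n → F) (hv : ⟪v, v⟫ = 0) (c : F) (hc : c + c ^ q = 0), (v = e ∨ v = f) →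
      tv hF hv hc ∈ L) :
    ∃ t ∈ L, ∀ x, act t x = x + ((ν - 1) * ⟪x, f⟫) • e + ((ν⁻¹ - 1) * ⟪x, e⟫) • f := by
  have hfe : ⟪f, e⟫ = 1 := hermForm_symm_one hF hef
  have hweyl : ∀ {c : F}, c ≠ 0 → c ^ q = -c → ∃ t ∈ L, ∀ x, act t x =
      x + (c * ⟪x, e⟫ - ⟪x, f⟫) • e + (-(⟪x, f⟫ / c) - ⟪x, e⟫) • f := by
    intro c hc0 hc
    have hc' : c + c ^ q = 0 := by rw [hc]; ring
    have hd' : (-c⁻¹) + (-c⁻¹) ^ q = 0 := by
      rw [pow_q_neg hF, inv_pow, hc, inv_neg]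
      ring
    refine ⟨tv hF he hc' * tv hF hf hd' * tv hF he hc',
      L.mul_mem (L.mul_mem (hL _ _ _ _ (Or.inl rfl)) (hL _ _ _ _ (Or.inr rfl)))
        (hL _ _ _ _ (Or.inl rfl)), fun x => ?_⟩
    simp only [act_mul, act_tv, hermForm_add_left, hermForm_smul_left, he, hef, hfe, hf]
    funext i
    simp only [Pi.add_apply, Pi.smul_apply, smul_eq_mul]
    field_simp
    ring
  obtain ⟨c, hc0, hc⟩ := exists_trace_zero hF
  have hc₁0 : -(ν * c) ≠ 0 := neg_ne_zero.mpr (mul_ne_zero hν0 hc0)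
  have hc₁ : (-(ν * c)) ^ q = -(-(ν * c)) := by
    rw [pow_q_neg hF, mul_pow, hν, hc]
    ring
  obtain ⟨t₁, h₁, h₁'⟩ := hweyl hc₁0 hc₁
  obtain ⟨t₂, h₂, h₂'⟩ := hweyl hc0 hc
  refine ⟨t₁ * t₂, L.mul_mem h₁ h₂, fun x => ?_⟩
  simp only [act_mul, h₁', h₂', hermForm_add_left, hermForm_smul_left, he, hef, hfe, hf]
  funext i
  simp only [Pi.add_apply, Pi.smul_apply, smul_eq_mul]
  field_simp
  ring

theorem exists_a (β : F) : ∃ a : F, a * a ^ q + β + β ^ q = 0 := by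
  have hq := two_le_q hF
  by_cases h : β + β ^ q = 0
  · exact ⟨0, by rw [zero_mul, zero_add]; exact h⟩
  · have h1 : (-(β + β ^ q)) ^ q = -(β + β ^ q) := by
      rw [pow_q_neg hF, pow_q_add hF, pow_q_pow_q hF, add_comm]
    obtain ⟨a, ha⟩ := exists_norm_eq hF _ (neg_ne_zero.2 h) h1
    refine ⟨a, ?_⟩
    have : a * a ^ q = a ^ (q + 1) := by rw [pow_succ]; ring
    rw [this, ha]
    ring

/-- The Weyl elements of the `SU₃` of a hyperbolic pair and an anisotropic vector. -/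
theorem exists_NNo {e f m : Fin n → F} (he : ⟪e, e⟫ = 0) (hf : ⟪f, f⟫ = 0) (hef : ⟪e, f⟫ = 1)
    (hem : ⟪e, m⟫ = 0) (hfm : ⟪f, m⟫ = 0) (hmm : ⟪m, m⟫ = 1)
    {β : F} (hβ0 : β ≠ 0) (L : Subgroup (SU n F q))
    (hL : ∀ (v : Fin n → F) (hv : ⟪v, v⟫ = 0) (a γ : F) (hw : ⟪a • m, v⟫ = 0)
      (hγ : γ + γ ^ q + ⟪a • m, a • m⟫ = 0), (v = e ∨ v = f) → siegel hF hv hw hγ ∈ L) :
    ∃ t ∈ L, ∀ x, act t x = x + (⟪x, e⟫ * β - ⟪x, f⟫) • e + (⟪x, f⟫ * (β ^ q)⁻¹ - ⟪x, e⟫) • f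
      + (-(⟪x, m⟫ * β ^ q * β⁻¹) - ⟪x, m⟫) • m := by
  have hfe : ⟪f, e⟫ = 1 := hermForm_symm_one hF hef
  have hme : ⟪m, e⟫ = 0 := hermForm_symm_zero hF hem
  have hmf : ⟪m, f⟫ = 0 := hermForm_symm_zero hF hfm
  obtain ⟨a, hN⟩ := exists_a hF β
  have hβq : β ^ q ≠ 0 := pow_ne_zero _ hβ0
  have hw1 : ⟪a • m, e⟫ = 0 := by rw [hermForm_smul_left, hme, mul_zero]
  have hγ1 : β + β ^ q + ⟪a • m, a • m⟫ = 0 := by
    rw [hermForm_smul_left, hermForm_smul_right, hmm]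
    linear_combination hN
  have hw2 : ⟪(-a / β ^ q) • m, f⟫ = 0 := by rw [hermForm_smul_left, hmf, mul_zero]
  have hbq : (-a / β ^ q) ^ q = -a ^ q / β := by
    rw [div_pow, pow_q_neg hF, pow_q_pow_q hF]
  have hγ2 : (β ^ q)⁻¹ + ((β ^ q)⁻¹) ^ q + ⟪(-a / β ^ q) • m, (-a / β ^ q) • m⟫ = 0 := by
    rw [hermForm_smul_left, hermForm_smul_right, hmm, hbq, inv_pow, pow_q_pow_q hF]
    field_simp
    linear_combination hN
  have hw3 : ⟪(a * β / β ^ q) • m, e⟫ = 0 := by rw [hermForm_smul_left, hme, mul_zero]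
  have hcq : (a * β / β ^ q) ^ q = a ^ q * β ^ q / β := by
    rw [div_pow, mul_pow, pow_q_pow_q hF]
  have hγ3 : β + β ^ q + ⟪(a * β / β ^ q) • m, (a * β / β ^ q) • m⟫ = 0 := by
    rw [hermForm_smul_left, hermForm_smul_right, hmm, hcq]
    field_simp
    linear_combination hN
  refine ⟨siegel hF he hw1 hγ1 * (siegel hF hf hw2 hγ2 * siegel hF he hw3 hγ3),
    L.mul_mem (hL _ _ _ _ _ _ (Or.inl rfl)) (L.mul_mem (hL _ _ _ _ _ _ (Or.inr rfl))
      (hL _ _ _ _ _ _ (Or.inl rfl))), fun x => ?_⟩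
  have hB : β ^ q = -(a * a ^ q + β) := by linear_combination hN
  have hB0 : a * a ^ q + β ≠ 0 := by
    intro h0
    rw [h0, neg_zero] at hB
    exact hβq hB
  simp only [act_mul, act_siegel, hermForm_add_left, hermForm_sub_left, hermForm_smul_left,
    hermForm_smul_right, he, hf, hef, hfe, hem, hfm, hme, hmf, hmm, hbq, hcq]
  funext i
  simp only [Pi.add_apply, Pi.sub_apply, Pi.smul_apply, smul_eq_mul]
  simp only [hB]
  field_simp
  ring

/-- The torus elements of the `SU₃` of a hyperbolic pair and an anisotropic vector. -/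
theorem exists_torus_odd {e f m : Fin n → F} (he : ⟪e, e⟫ = 0) (hf : ⟪f, f⟫ = 0) (hef : ⟪e, f⟫ = 1)
    (hem : ⟪e, m⟫ = 0) (hfm : ⟪f, m⟫ = 0) (hmm : ⟪m, m⟫ = 1)
    {t : F} (ht0 : t ≠ 0) (L : Subgroup (SU n F q))
    (hL : ∀ (v : Fin n → F) (hv : ⟪v, v⟫ = 0) (a γ : F) (hw : ⟪a • m, v⟫ = 0)
      (hγ : γ + γ ^ q + ⟪a • m, a • m⟫ = 0), (v = e ∨ v = f) → siegel hF hv hw hγ ∈ L) :
    ∃ h ∈ L, ∀ x, act h x = x + ((t - 1) * ⟪x, f⟫) • e + (((t ^ q)⁻¹ - 1) * ⟪x, e⟫) • f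
      + ((t ^ q * t⁻¹ - 1) * ⟪x, m⟫) • m := by
  have hfe : ⟪f, e⟫ = 1 := hermForm_symm_one hF hef
  have hme : ⟪m, e⟫ = 0 := hermForm_symm_zero hF hem
  have hmf : ⟪m, f⟫ = 0 := hermForm_symm_zero hF hfm
  have htq : t ^ q ≠ 0 := pow_ne_zero _ ht0
  obtain ⟨h₁, hh₁, h₁'⟩ := exists_NNo hF he hf hef hem hfm hmm ht0 L hL
  obtain ⟨h₂, hh₂, h₂'⟩ := exists_NNo hF he hf hef hem hfm hmm (one_ne_zero) L hL
  refine ⟨h₁ * h₂, L.mul_mem hh₁ hh₂, fun x => ?_⟩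
  rw [act_mul, h₂', h₁']
  simp only [hermForm_add_left, hermForm_smul_left, he, hf, hef, hfe, hem, hfm, hme, hmf, hmm,
    one_pow, inv_one]
  funext i
  simp only [Pi.add_apply, Pi.smul_apply, smul_eq_mul]
  field_simp
  ring

end rankone

end Cfsg.Agent.Lib.Fusion.PSU.Torus
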