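/-
The defining characteristic fusion system of `PSU_n(q)`, `n ≥ 4`, is simple.
-/
import Mathlib
import Cfsg.Agent.Lib.Fusion.PSU.Torus

set_option autoImplicit false
set_option linter.unusedSectionVars false
set_option linter.unusedSimpArgs false
set_option linter.unusedVariables false

namespace Cfsg.Agent.Lib.Fusion.PSU.Main

open scoped Matrix
open Cfsg
open Cfsg.Agent.Lib.Classical.Herm.Basic Cfsg.Agent.Lib.Classical.Herm.Form
open Cfsg.Agent.Lib.Classical.Herm.GU Cfsg.Agent.Lib.Classical.Herm.SU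
open Cfsg.Agent.Lib.Classical.Herm.Subfield
open Cfsg.Agent.Lib.Classical.Herm.Tv Cfsg.Agent.Lib.Classical.Herm.Comm
open Cfsg.Agent.Lib.Classical.Herm.Unip
open Cfsg.Agent.Lib.Fusion.PSU.Basis Cfsg.Agent.Lib.Fusion.PSU.Basis.WB
open Cfsg.Agent.Lib.Fusion.PSU.Upper Cfsg.Agent.Lib.Fusion.PSU.Closed
open Cfsg.Agent.Lib.Fusion.PSU.Radicals Cfsg.Agent.Lib.Fusion.PSU.Torus
open Cfsg.Agent.Lib.Fusion.SimpleCriterion3 Cfsg.Agent.Lib.Fusion.GroupSylow

variable {F : Type*} [Field F] [Fintype F] {q n : ℕ} {W : WB F q n}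

local notation "⟪" x ", " y "⟫" => hermForm _ _ q x y

section main
variable {p : ℕ} [hp : Fact p.Prime] [hc : CharP F p]

/-- The family of radicals. -/
noncomputable def family (W : WB F q n) (k₀ : Fin n) : Set (Subgroup (PSU n F q)) :=
  {RQ q (W.u k₀), RSP W}

theorem mem_KK_of {R : Subgroup (PSU n F q)} {x : SU n F q} (hx : PEl p x)
    (hN : pr x ∈ Subgroup.normalizer (R : Set (PSU n F q))) : pr x ∈ KK p R :=
  Subgroup.subset_closure ⟨hN, order_pr_of_pEl hx⟩

theorem twoPairs (W : WB F q n) {a b : Fin n} (ha : (a : ℕ) < n / 2) (hb : (b : ℕ) < n / 2)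
    (hab : a ≠ b) : TwoPairs q (W.u a) (W.u b) (W.u (Fin.rev a)) (W.u (Fin.rev b)) := by
  have hrv : ∀ i : Fin n, ((Fin.rev i : Fin n) : ℕ) = n - ((i : ℕ) + 1) := fun i => Fin.val_rev i
  have hra := hrv a
  have hrb := hrv b
  have ha2 := a.2
  have hb2 := b.2
  have hab' : (a : ℕ) ≠ b := fun e => hab (Fin.ext e)
  constructor <;> first
    | exact form_ne' W (by omega)
    | exact form_one' W (by omega)

include hc in
theorem pr_XX_mem_KK (hF : Fintype.card F = q ^ 2) {a b : Fin n} (ha : (a : ℕ) < n / 2)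
    (hb : (b : ℕ) < n / 2) (hab : a ≠ b) (he : ⟪W.u a, W.u a⟫ = 0)
    (hf' : ⟪W.u (Fin.rev b), W.u (Fin.rev b)⟫ = 0) (hf'e : ⟪W.u (Fin.rev b), W.u a⟫ = 0) (c : F) :
    pr (XX hF he hf' hf'e c) ∈ KK p (RSP W) := by
  refine mem_KK_of (pEl_of_mem_Re (p := p) (XX_mem_Re hF he hf' hf'e c))
    (pr_mem_normalizer_RSP fun i hi j hj => ?_)
  have hrv : ∀ i : Fin n, ((Fin.rev i : Fin n) : ℕ) = n - ((i : ℕ) + 1) := fun i => Fin.val_rev i
  have h : ∀ l : Fin n, (l : ℕ) < n / 2 → W.cc j (W.u l) = 0 := by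
    intro l hl
    rw [cc_u, if_neg]
    rintro rfl
    omega
  rw [act_XX, form_ne' W (i := i) (j := a) (by omega), cc_add, cc_add, cc_smul, cc_smul, h i hi,
    h a ha]
  simp

include hc in
/-- The torus elements of the Siegel Levi. -/
theorem mem_DD_HH (hF : Fintype.card F = q ^ 2) (k₀ : Fin n) {a b : Fin n} (ha : (a : ℕ) < n / 2)
    (hb : (b : ℕ) < n / 2) (hab : a ≠ b) {s : F} (hs : s ≠ 0) :
    ∃ (h : SU n F q) (t : Fin n → F), pr h ∈ DD p (family W k₀) (UP W) ∧ IsDiag W h t ∧ t a = s ∧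
      t b = s⁻¹ ∧ ∀ i : Fin n, (i : ℕ) < n / 2 → i ≠ a → i ≠ b → t i = 1 := by
  classical
  have P := twoPairs W ha hb hab
  have hrv : ∀ i : Fin n, ((Fin.rev i : Fin n) : ℕ) = n - ((i : ℕ) + 1) := fun i => Fin.val_rev i
  have hra := hrv a
  have hrb := hrv b
  have ha2 := a.2
  have hb2 := b.2
  have hab' : (a : ℕ) ≠ b := fun e => hab (Fin.ext e)
  let t : Fin n → F := fun i => if i = a then s else if i = b then s⁻¹ else
    if i = Fin.rev a then (s ^ q)⁻¹ else if i = Fin.rev b then s ^ q else 1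
  have hna : Fin.rev a ≠ a := by
    intro e
    have := congrArg Fin.val e
    omega
  have hnb : Fin.rev a ≠ b := by
    intro e
    have := congrArg Fin.val e
    omega
  have hnc : Fin.rev b ≠ a := by
    intro e
    have := congrArg Fin.val e
    omega
  have hnd : Fin.rev b ≠ b := by
    intro e
    have := congrArg Fin.val e
    omega
  have hne : Fin.rev b ≠ Fin.rev a := by
    intro e
    have := congrArg Fin.val e
    omega
  have hD : IsDiag W (HH hF P s) t := by
    intro i
    rw [act_HH hF P hs]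
    by_cases h1 : i = a
    · subst h1
      simp only [P.ee, P.ee', P.ef, P.ef', mul_zero, zero_smul, add_zero, mul_one, t, if_true]
      funext l
      simp only [Pi.add_apply, Pi.smul_apply, smul_eq_mul]
      ring
    by_cases h2 : i = b
    · subst h2
      simp only [P.e'e, P.e'e', P.e'f, P.e'f', mul_zero, zero_smul, add_zero, mul_one, t, if_true,
        if_neg h1]
      funext l
      simp only [Pi.add_apply, Pi.smul_apply, smul_eq_mul]
      ring
    by_cases h3 : i = Fin.rev a
    · subst h3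
      simp only [P.fe, P.fe', P.ff, P.ff', mul_zero, zero_smul, add_zero, mul_one, t, if_true,
        if_neg h1, if_neg h2]
      funext l
      simp only [Pi.add_apply, Pi.smul_apply, smul_eq_mul]
      ring
    by_cases h4 : i = Fin.rev b
    · subst h4
      simp only [P.f'e, P.f'e', P.f'f, P.f'f', mul_zero, zero_smul, add_zero, mul_one, t, if_true,
        if_neg h1, if_neg h2, if_neg h3]
      funext l
      simp only [Pi.add_apply, Pi.smul_apply, smul_eq_mul]
      ring
    · have hi1 : (i : ℕ) ≠ a := fun e => h1 (Fin.ext e)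
      have hi2 : (i : ℕ) ≠ b := fun e => h2 (Fin.ext e)
      have hi3 : (i : ℕ) ≠ (Fin.rev a : Fin n) := fun e => h3 (Fin.ext e)
      have hi4 : (i : ℕ) ≠ (Fin.rev b : Fin n) := fun e => h4 (Fin.ext e)
      have hi5 := i.2
      rw [form_ne' W (i := i) (j := Fin.rev a) (by omega), form_ne' W (i := i) (j := Fin.rev b) (by omega),
        form_ne' W (i := i) (j := a) (by omega), form_ne' W (i := i) (j := b) (by omega)]
      simp only [mul_zero, zero_smul, add_zero, t, if_neg h1, if_neg h2, if_neg h3, if_neg h4, one_smul]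
  refine ⟨HH hF P s, t, ?_, hD, by simp [t], by simp [t, hab.symm], fun i hi h1 h2 => ?_⟩
  · refine Subgroup.subset_closure ⟨RSP W, Or.inr rfl, ?_, hD.pr_mem_normalizer⟩
    simp only [HH, NN, map_mul]
    have hX := fun c : F => pr_XX_mem_KK (W := W) (p := p) hF ha hb hab P.ee P.f'f' P.f'e c
    have hY := fun c : F => pr_XX_mem_KK (W := W) (p := p) hF hb ha hab.symm P.e'e' P.ff P.fe' c
    exact Subgroup.mul_mem _ (Subgroup.mul_mem _ (hX _) (Subgroup.mul_mem _ (hY _) (hX _)))
      (Subgroup.mul_mem _ (hX _) (Subgroup.mul_mem _ (hY _) (hX _)))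
  · have h3 : i ≠ Fin.rev a := by
      intro e
      have := congrArg Fin.val e
      omega
    have h4 : i ≠ Fin.rev b := by
      intro e
      have := congrArg Fin.val e
      omega
    simp only [t, if_neg h1, if_neg h2, if_neg h3, if_neg h4]

/-- The subgroup of elements with image in `O^{p'}(N(RQ))`. -/
noncomputable def LL (p : ℕ) (q : ℕ) (e : Fin n → F) : Subgroup (SU n F q) :=
  (KK p (RQ q e)).comap pr

include hc in
theorem siegel_mem_LL (hF : Fintype.card F = q ^ 2) {e₀ v w : Fin n → F} {γ : F} (hv : ⟪v, v⟫ = 0)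
    (hw : ⟪w, v⟫ = 0) (hγ : γ + γ ^ q + ⟪w, w⟫ = 0) (h1 : ⟪e₀, v⟫ = 0) (h2 : ⟪e₀, w⟫ = 0) :
    siegel hF hv hw hγ ∈ LL p q e₀ := by
  refine mem_KK_of (pEl_of_mem_Re (p := p) (siegel_mem_Re hF hv hw hγ))
    (pr_mem_normalizer_RQ (a := 1) one_ne_zero ?_)
  rw [act_siegel, h1, h2]
  simp

include hc in
theorem tv_mem_LL (hF : Fintype.card F = q ^ 2) {e₀ v : Fin n → F} {c : F} (hv : ⟪v, v⟫ = 0)
    (hc' : c + c ^ q = 0) (h1 : ⟪e₀, v⟫ = 0) : tv hF hv hc' ∈ LL p q e₀ := by
  refine mem_KK_of (pEl_of_mem_Re (p := p) (tv_mem_Re hF hv hc'))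
    (pr_mem_normalizer_RQ (a := 1) one_ne_zero ?_)
  rw [act_tv, h1]
  simp

include hc in
/-- An upper triangular element with diagonal one on the first half, apart from the position `k₁`. -/
theorem mem_DD_base (hF : Fintype.card F = q ^ 2) (hn : 4 ≤ n) {k₀ k₁ : Fin n} (h0 : (k₀ : ℕ) = 0)
    (h1 : (k₁ : ℕ) = 1) {g : SU n F q} (hg : W.IsUp g)
    (hd : ∀ i : Fin n, (i : ℕ) < n / 2 → i ≠ k₁ → W.M g i i = 1) :
    pr g ∈ DD p (family W k₀) (UP W) := by
  classical
  have hrv : ∀ i : Fin n, ((Fin.rev i : Fin n) : ℕ) = n - ((i : ℕ) + 1) := fun i => Fin.val_rev i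
  have hr1 := hrv k₁
  have hk₁r : (k₁ : ℕ) < n / 2 := by omega
  set t := W.M g k₁ k₁ with ht
  have hp1 := diag_pair hF hg k₁
  have ht0 : t ≠ 0 := by
    intro h
    rw [← ht, h, zero_mul] at hp1
    exact zero_ne_one hp1
  have he : ⟪W.u k₁, W.u k₁⟫ = 0 := form_ne' W (by omega)
  have hf : ⟪W.u (Fin.rev k₁), W.u (Fin.rev k₁)⟫ = 0 := form_ne' W (by omega)
  have hef : ⟪W.u k₁, W.u (Fin.rev k₁)⟫ = 1 := form_rev W k₁
  have hfe : ⟪W.u (Fin.rev k₁), W.u k₁⟫ = 1 := hermForm_symm_one hF hef
  have hk0e : ⟪W.u k₀, W.u k₁⟫ = 0 := form_ne' W (by omega)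
  have hk0f : ⟪W.u k₀, W.u (Fin.rev k₁)⟫ = 0 := form_ne' W (by omega)
  -- the torus element
  have hex : ∃ (h : SU n F q) (τ : Fin n → F), h ∈ LL p q (W.u k₀) ∧ IsDiag W h τ ∧ τ k₁ = t ∧
      ∀ i : Fin n, (i : ℕ) < n / 2 → i ≠ k₁ → τ i = 1 := by
    by_cases hodd : 2 * (n / 2) + 1 = n
    · -- `n` odd
      have hlt : n / 2 < n := by omega
      let j : Fin n := ⟨n / 2, hlt⟩
      have hj : (j : ℕ) = n / 2 := rfl
      have hrj := hrv j
      have hem : ⟪W.u k₁, W.u j⟫ = 0 := form_ne' W (by omega)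
      have hfm : ⟪W.u (Fin.rev k₁), W.u j⟫ = 0 := form_ne' W (by omega)
      have hmm : ⟪W.u j, W.u j⟫ = 1 := form_one' W (by omega)
      have hmk : ⟪W.u j, W.u k₁⟫ = 0 := hermForm_symm_zero hF hem
      have hmf : ⟪W.u j, W.u (Fin.rev k₁)⟫ = 0 := hermForm_symm_zero hF hfm
      obtain ⟨h, hh, hact⟩ := exists_torus_odd hF he hf hef hem hfm hmm ht0 (LL p q (W.u k₀))
        (fun v hv a γ hw hγ hor => siegel_mem_LL (p := p) hF hv hw hγ
          (by rcases hor with rfl | rfl <;> assumption)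
          (by
            rw [hermForm_smul_right, form_ne' W (i := k₀) (j := j) (by omega), mul_zero]))
      let τ : Fin n → F := fun i => if i = k₁ then t else if i = Fin.rev k₁ then (t ^ q)⁻¹ else
        if i = j then t ^ q * t⁻¹ else 1
      have hjk : j ≠ k₁ := by
        intro e
        have := congrArg Fin.val e
        omega
      have hjf : j ≠ Fin.rev k₁ := by
        intro e
        have := congrArg Fin.val e
        omega
      have hfk : Fin.rev k₁ ≠ k₁ := by
        intro e
        have := congrArg Fin.val e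
        omega
      refine ⟨h, τ, hh, fun i => ?_, by simp [τ], fun i hi hi1 => ?_⟩
      · rw [hact]
        by_cases h2 : i = k₁
        · subst h2
          simp only [he, hef, hem, mul_zero, zero_smul, add_zero, mul_one, τ, if_true]
          funext l
          simp only [Pi.add_apply, Pi.smul_apply, smul_eq_mul]
          ring
        by_cases h3 : i = Fin.rev k₁
        · subst h3
          simp only [hf, hfe, hfm, mul_zero, zero_smul, add_zero, mul_one, τ, if_true, if_neg hfk]
          funext l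
          simp only [Pi.add_apply, Pi.smul_apply, smul_eq_mul]
          ring
        by_cases h4 : i = j
        · rw [h4]
          simp only [hmk, hmf, hmm, mul_zero, zero_smul, add_zero, mul_one, τ, if_true, if_neg hjk,
            if_neg hjf]
          funext l
          simp only [Pi.add_apply, Pi.smul_apply, smul_eq_mul]
          ring
        · have hi1 : (i : ℕ) ≠ k₁ := fun e => h2 (Fin.ext e)
          have hi3 : (i : ℕ) ≠ (Fin.rev k₁ : Fin n) := fun e => h3 (Fin.ext e)
          have hi4 : (i : ℕ) ≠ j := fun e => h4 (Fin.ext e)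
          have hi5 := i.2
          rw [form_ne' W (i := i) (j := Fin.rev k₁) (by omega), form_ne' W (i := i) (j := k₁) (by omega),
            form_ne' W (i := i) (j := j) (by omega)]
          simp only [mul_zero, zero_smul, add_zero, τ, if_neg h2, if_neg h3, if_neg h4, one_smul]
      · have h3 : i ≠ Fin.rev k₁ := by
          intro e
          have := congrArg Fin.val e
          omega
        have h4 : i ≠ j := by
          intro e
          have := congrArg Fin.val e
          omega
        simp only [τ, if_neg hi1, if_neg h3, if_neg h4]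
    · -- `n` even
      have hfk : Fin.rev k₁ ≠ k₁ := by
        intro e
        have := congrArg Fin.val e
        omega
      have hc1 : ∀ c : Fin n, c ≠ k₁ → c ≠ Fin.rev k₁ → W.M g c c = 1 := by
        intro c hc1 hc2
        by_cases hc3 : (c : ℕ) < n / 2
        · exact hd c hc3 hc1
        · have hc4 := c.2
          have hrc := hrv c
          have h5 := diag_pair hF hg (Fin.rev c)
          rw [Fin.rev_rev, hd _ (by omega) (fun e => hc2 (by rw [← e, Fin.rev_rev])), one_mul] at h5
          have h6 := congrArg (fun t : F => t ^ q) h5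
          simpa [pow_q_pow_q hF] using h6
      have h5 := W.prod_diag hg
      rw [Finset.prod_eq_mul k₁ (Fin.rev k₁) hfk.symm (fun c _ h => hc1 c h.1 h.2) (by simp) (by simp)] at h5
      have h6 : (W.M g (Fin.rev k₁) (Fin.rev k₁)) ^ q = W.M g (Fin.rev k₁) (Fin.rev k₁) := by
        apply mul_left_cancel₀ ht0
        rw [ht, hp1, h5]
      have h7 : t ^ q = t := by
        have h8 : W.M g (Fin.rev k₁) (Fin.rev k₁) = t⁻¹ := by
          field_simp
          rw [mul_comm]
          exact h5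
        rw [h8, inv_pow] at h6
        exact inv_injective h6
      obtain ⟨h, hh, hact⟩ := exists_torus_in hF he hf hef ht0 h7 (LL p q (W.u k₀))
        (fun v hv c hc' hor => tv_mem_LL (p := p) hF hv hc' (by rcases hor with rfl | rfl <;> assumption))
      let τ : Fin n → F := fun i => if i = k₁ then t else if i = Fin.rev k₁ then t⁻¹ else 1
      refine ⟨h, τ, hh, fun i => ?_, by simp [τ], fun i hi hi1 => ?_⟩
      · rw [hact]
        by_cases h2 : i = k₁
        · subst h2
          simp only [he, hef, mul_zero, zero_smul, add_zero, mul_one, τ, if_true]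
          funext l
          simp only [Pi.add_apply, Pi.smul_apply, smul_eq_mul]
          ring
        by_cases h3 : i = Fin.rev k₁
        · subst h3
          simp only [hf, hfe, mul_zero, zero_smul, add_zero, mul_one, τ, if_true, if_neg hfk]
          funext l
          simp only [Pi.add_apply, Pi.smul_apply, smul_eq_mul]
          ring
        · have hi1 : (i : ℕ) ≠ k₁ := fun e => h2 (Fin.ext e)
          have hi3 : (i : ℕ) ≠ (Fin.rev k₁ : Fin n) := fun e => h3 (Fin.ext e)
          have hi5 := i.2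
          rw [form_ne' W (i := i) (j := Fin.rev k₁) (by omega), form_ne' W (i := i) (j := k₁) (by omega)]
          simp only [mul_zero, zero_smul, add_zero, τ, if_neg h2, if_neg h3, one_smul]
      · have h3 : i ≠ Fin.rev k₁ := by
          intro e
          have := congrArg Fin.val e
          omega
        simp only [τ, if_neg hi1, if_neg h3]
  obtain ⟨h, τ, hh, hD, hτ1, hτ2⟩ := hex
  have hk : W.IsU (h⁻¹ * g) := by
    refine isU_of_half hF (hD.inv.isUp.mul hg) fun i hi => ?_
    rw [hD.inv.isUp.diag_mul hg, hD.inv.M_self]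
    by_cases hi1 : i = k₁
    · subst hi1
      rw [hτ1, ← ht]
      exact inv_mul_cancel₀ ht0
    · rw [hτ2 i hi hi1, hd i hi hi1, inv_one, one_mul]
  have e1 : g = h * (h⁻¹ * g) := by group
  rw [e1, map_mul]
  refine Subgroup.mul_mem _ (Subgroup.subset_closure ⟨RQ q (W.u k₀), Or.inl rfl, hh,
    hD.pr_mem_normalizer⟩) (Subgroup.subset_closure ⟨RQ q (W.u k₀), Or.inl rfl, mem_KK_of
      (pEl_of_isU hk) (UP_le_normalizer_RQ h0 ⟨_, hk, rfl⟩), Subgroup.le_normalizer ⟨_, hk, rfl⟩⟩)

include hc in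
/-- All upper triangular elements are generated. -/
theorem mem_DD_up (hF : Fintype.card F = q ^ 2) (hn : 4 ≤ n) {k₀ k₁ : Fin n} (h0 : (k₀ : ℕ) = 0)
    (h1 : (k₁ : ℕ) = 1) {g : SU n F q} (hg : W.IsUp g) :
    pr g ∈ DD p (family W k₀) (UP W) := by
  classical
  have hk₁r : (k₁ : ℕ) < n / 2 := by omega
  have key : ∀ A : Finset (Fin n), ∀ g : SU n F q, W.IsUp g →
      (∀ i : Fin n, (i : ℕ) < n / 2 → i ≠ k₁ → i ∉ A → W.M g i i = 1) →
      pr g ∈ DD p (family W k₀) (UP W) := by
    intro A
    induction A using Finset.induction_on with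
    | empty =>
      intro g hg hd
      exact mem_DD_base hF hn h0 h1 hg fun i hi hi1 => hd i hi hi1 (by simp)
    | insert a A ha ih =>
      intro g hg hd
      by_cases ha1 : (a : ℕ) < n / 2 ∧ a ≠ k₁
      · obtain ⟨ha2, ha3⟩ := ha1
        have hpair := diag_pair hF hg a
        have hs : W.M g a a ≠ 0 := by
          intro h
          rw [h, zero_mul] at hpair
          exact zero_ne_one hpair
        obtain ⟨h, t, hh1, hh2, hh3, hh4, hh5⟩ := mem_DD_HH (W := W) (p := p) hF k₀ ha2 hk₁r ha3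
          (inv_ne_zero hs)
        have e1 : pr g = (pr h)⁻¹ * pr (h * g) := by
          rw [map_mul]
          group
        rw [e1]
        refine Subgroup.mul_mem _ (Subgroup.inv_mem _ hh1) (ih _ (hh2.isUp.mul hg) fun i hi hi1 hiA => ?_)
        rw [hh2.isUp.diag_mul hg, hh2.M_self]
        by_cases hia : i = a
        · subst hia
          rw [hh3]
          exact inv_mul_cancel₀ hs
        · rw [hh5 i hi hia hi1, hd i hi hi1 (by simp [hia, hiA]), one_mul]
      · refine ih g hg fun i hi hi1 hiA => hd i hi hi1 ?_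
        simp only [Finset.mem_insert, not_or]
        refine ⟨?_, hiA⟩
        rintro rfl
        exact ha1 ⟨hi, hi1⟩
  exact key Finset.univ g hg fun i _ _ hi => absurd (Finset.mem_univ i) hi

include hc in
theorem normalizer_le_DD (hF : Fintype.card F = q ^ 2) (hn : 4 ≤ n) {k₀ k₁ : Fin n}
    (h0 : (k₀ : ℕ) = 0) (h1 : (k₁ : ℕ) = 1) :
    Subgroup.normalizer ((UP W : Subgroup _) : Set (PSU n F q)) ≤ DD p (family W k₀) (UP W) := by
  intro x hx
  obtain ⟨g, rfl⟩ := pr_surjective x
  have hn1 : 1 ≤ n := by omega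
  have hup : W.IsUp g := by
    refine upper_of_normalizes hF fun u hu => ?_
    have h3 := (Subgroup.mem_normalizer_iff.1 (Subgroup.inv_mem _ hx) (pr u)).1 ⟨u, hu, rfl⟩
    have h2 : pr (g⁻¹ * u * g) ∈ UP W := by simpa [map_mul] using h3
    obtain ⟨u', hu', e⟩ := h2
    have hp1 : PEl p (g⁻¹ * u * g) := by
      have := (pEl_of_isU (p := p) hu).conj g⁻¹
      rwa [inv_inv] at this
    have := eq_of_pr_eq (p := p) hF hn1 (pEl_of_isU hu') hp1 e
    rw [← this]
    exact hu'
  exact mem_DD_up hF hn h0 h1 hup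

include hc in
/-- Strongly closed subgroups of the image of the unitriangular group. -/
theorem stronglyClosed_cases (hF : Fintype.card F = q ^ 2) (hn : 4 ≤ n) {k₀ : Fin n}
    (h0 : (k₀ : ℕ) = 0) {T : Subgroup (PSU n F q)}
    (hT : (groupFusionSystem (UP W)).StronglyClosed T) : T = ⊥ ∨ T = UP W := by
  obtain ⟨hle, hcl⟩ := stronglyClosed_iff.1 hT
  have hCl : Cl W (T.comap pr ⊓ W.US) := by
    constructor
    · exact inf_le_right
    · rintro x ⟨hx1, hx2⟩ g hg
      refine ⟨?_, hg⟩
      have h1 : pr g * pr x * (pr g)⁻¹ ∈ UP W := by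
        have : pr (g * x * g⁻¹) ∈ UP W := ⟨_, hg, rfl⟩
        simpa [map_mul] using this
      have := hcl _ hx1 (pr g) h1
      simpa [map_mul] using this
  by_cases hbot : T.comap pr ⊓ W.US = ⊥
  · left
    rw [eq_bot_iff]
    intro t ht
    obtain ⟨u, hu, rfl⟩ := hle ht
    have : u ∈ T.comap pr ⊓ W.US := ⟨ht, hu⟩
    rw [hbot, Subgroup.mem_bot] at this
    rw [this, map_one]
    exact Subgroup.mem_bot.2 rfl
  · right
    have h1 := closed_cases (p := p) hF hCl h0 hn hbot
    refine le_antisymm hle ?_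
    rintro _ ⟨u, hu, rfl⟩
    rw [← h1] at hu
    exact hu.1

end main

/-- **The defining characteristic fusion system of `PSU_n(q)`, `n ≥ 4`, is simple.** -/
theorem isSimple_psu {K : Type*} [Field K] [Fintype K] (p q : ℕ) [Fact p.Prime] [CharP K p]
    (hK : Fintype.card K = q ^ 2) (n : ℕ) (hn : 4 ≤ n) (S : Sylow p (PSU n K q)) :
    (groupFusionSystem (S : Subgroup (PSU n K q))).IsSimple p := by
  obtain ⟨W⟩ := exists_wb hK n
  let k₀ : Fin n := ⟨0, by omega⟩
  let k₁ : Fin n := ⟨1, by omega⟩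
  have h0 : (k₀ : ℕ) = 0 := rfl
  have h1 : (k₁ : ℕ) = 1 := rfl
  have hn1 : 1 ≤ n := by omega
  obtain ⟨P, hP⟩ := exists_sylow (p := p) hK W
  let S₀ : Sylow p (PSU n K q) := P.mapSurjective pr_surjective
  have hS₀ : (S₀ : Subgroup (PSU n K q)) = UP W := by
    show Subgroup.map pr (P : Subgroup (SU n K q)) = _
    rw [hP]
    rfl
  have hrv : ∀ i : Fin n, ((Fin.rev i : Fin n) : ℕ) = n - ((i : ℕ) + 1) := fun i => Fin.val_rev i
  have he : hermForm n K q (W.u k₀) (W.u k₀) = 0 := form_ne' W (by omega)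
  have hk : hermForm n K q (W.u (Fin.rev k₀)) (W.u k₀) = 1 := form_one' W (by
    rw [hrv]
    omega)
  refine isSimple_of_data S₀ ?_ ?_ (family W k₀) ?_ ?_ ?_ ?_ S
  · rw [hS₀]
    intro hbot
    obtain ⟨c₀, hc0, hcq⟩ := exists_trace_zero hK
    have hc' : c₀ + c₀ ^ q = 0 := by rw [hcq]; ring
    have h1 : pr (tv hK he hc') ∈ UP W :=
      ⟨_, isU_tv hK he hc' (lower_u W (by omega)), rfl⟩
    rw [hbot, Subgroup.mem_bot, ← map_one pr] at h1
    have h2 := eq_of_pr_eq (p := p) hK hn1 (pEl_of_mem_Re (p := p) (tv_mem_Re hK he hc'))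
      ⟨0, by simp⟩ h1
    exact hc0 ((tv_eq_one_iff hK he (W.u_ne_zero k₀) hc').1 h2)
  · intro T hT
    rw [hS₀] at hT ⊢
    exact stronglyClosed_cases (p := p) hK hn h0 hT
  · rintro R (rfl | rfl)
    · rw [hS₀]
      exact Subgroup.map_mono (Re_le_US (p := p) hK h0)
    · rw [hS₀]
      exact Subgroup.map_mono (RS_le W)
  · rintro R (rfl | rfl)
    · rw [hS₀]
      exact UP_le_normalizer_RQ h0
    · rw [hS₀]
      exact UP_le_normalizer_RSP
  · rintro R (rfl | rfl)
    · exact centralizer_RQ_le (p := p) hK hn1 he hk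
    · exact centralizer_RSP_le (p := p) hK hn h0
  · rw [hS₀]
    exact normalizer_le_DD (k₁ := k₁) hK hn h0 h1

end Cfsg.Agent.Lib.Fusion.PSU.Main
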